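import Cfsg.Agent.H14.SecHyp2
import Cfsg.Agent.H14.Constr
import Cfsg.Agent.L.SecFC

/-!
H14/AEq: two functors with triple factorization in constrained sections have the same
normal closure of `Ω₁(Z(S))`.
-/

set_option autoImplicit false

namespace Cfsg.Agent.H14

universe u

open scoped commutatorElement

/-- `Ω₁(Z(T))` -/
abbrev om (p : ℕ) {G : Type*} [Group G] (T : Subgroup G) : Subgroup G :=
  Cfsg.omegaOne p (T ⊓ Subgroup.centralizer ((T : Subgroup G) : Set G))

theorem om_le {p : ℕ} {G : Type*} [Group G] (T : Subgroup G) : om p T ≤ T := by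
  apply (Subgroup.closure_le _).2
  intro x hx
  exact hx.1.1

theorem om_le_cent {p : ℕ} {G : Type*} [Group G] (T : Subgroup G) : om p T ≤ Subgroup.centralizer (T : Set G) := by
  apply (Subgroup.closure_le _).2
  intro x hx
  exact hx.1.2

theorem om_map {p : ℕ} {G H : Type*} [Group G] [Group H] (f : G →* H) {T : Subgroup G}
    (hf : ∀ x ∈ T, f x = 1 → x = 1) : (om p T).map f = om p (T.map f) := by
  have hinj : ∀ x ∈ T, ∀ y ∈ T, f x = f y → x = y := by
    intro x hx y hy h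
    have h1 : f (x * y⁻¹) = 1 := by rw [map_mul, map_inv, h, mul_inv_cancel]
    exact mul_inv_eq_one.1 (hf _ (mul_mem hx (inv_mem hy)) h1)
  rw [om, om, Cfsg.omegaOne, Cfsg.omegaOne, MonoidHom.map_closure]
  congr 1
  ext y
  constructor
  · rintro ⟨x, ⟨⟨hx1, hx2⟩, hx3⟩, rfl⟩
    refine ⟨⟨⟨x, hx1, rfl⟩, ?_⟩, ?_⟩
    · refine Subgroup.mem_centralizer_iff.2 ?_
      rintro _ ⟨z, hz, rfl⟩
      rw [← map_mul, ← map_mul, Subgroup.mem_centralizer_iff.1 hx2 z hz]
    · rw [← map_pow, hx3, map_one]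
  · rintro ⟨⟨⟨x, hx, rfl⟩, h2⟩, h3⟩
    refine ⟨x, ⟨⟨hx, ?_⟩, ?_⟩, rfl⟩
    · refine Subgroup.mem_centralizer_iff.2 ?_
      intro z hz
      apply hinj _ (mul_mem hz hx) _ (mul_mem hx hz)
      rw [map_mul, map_mul]
      exact Subgroup.mem_centralizer_iff.1 h2 _ ⟨z, hz, rfl⟩
    · apply hf _ (pow_mem hx p)
      rw [map_pow]; exact h3

/-- closure of the `N`-conjugates of `Z` -/
def ncl {G : Type*} [Group G] (N Z : Subgroup G) : Subgroup G :=
  Subgroup.closure {x | ∃ n ∈ N, ∃ z ∈ Z, x = n * z * n⁻¹}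

theorem ncl_mono {G : Type*} [Group G] {N N' Z : Subgroup G} (h : N ≤ N') : ncl N Z ≤ ncl N' Z := by
  apply Subgroup.closure_mono
  rintro x ⟨n, hn, z, hz, rfl⟩
  exact ⟨n, h hn, z, hz, rfl⟩

theorem ncl_map {G H : Type*} [Group G] [Group H] (f : G →* H) (N Z : Subgroup G) :
    (ncl N Z).map f = ncl (N.map f) (Z.map f) := by
  rw [ncl, ncl, MonoidHom.map_closure]
  congr 1
  ext y
  constructor
  · rintro ⟨_, ⟨n, hn, z, hz, rfl⟩, rfl⟩
    exact ⟨f n, ⟨n, hn, rfl⟩, f z, ⟨z, hz, rfl⟩, by simp⟩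
  · rintro ⟨_, ⟨n, hn, rfl⟩, _, ⟨z, hz, rfl⟩, rfl⟩
    exact ⟨n * z * n⁻¹, ⟨n, hn, z, hz, rfl⟩, by simp⟩

theorem ncl_le {G : Type*} [Group G] {N Z A : Subgroup G} (hZ : Z ≤ A) (hN : N ≤ Subgroup.normalizer (A : Set G)) :
    ncl N Z ≤ A := by
  apply (Subgroup.closure_le _).2
  rintro x ⟨n, hn, z, hz, rfl⟩
  exact (Subgroup.mem_normalizer_iff.1 (hN hn) z).1 (hZ hz)

theorem le_ncl {G : Type*} [Group G] (N Z : Subgroup G) : Z ≤ ncl N Z := by
  intro z hz
  exact Subgroup.subset_closure ⟨1, one_mem _, z, hz, by simp⟩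

theorem conj_mem_ncl {G : Type*} [Group G] {N Z : Subgroup G} {n z : G} (hn : n ∈ N) (hz : z ∈ Z) :
    n * z * n⁻¹ ∈ ncl N Z := Subgroup.subset_closure ⟨n, hn, z, hz, rfl⟩

theorem le_normalizer_ncl {G : Type*} [Group G] (N Z : Subgroup G) : N ≤ Subgroup.normalizer ((ncl N Z : Subgroup G) : Set G) := by
  have key : ∀ n ∈ N, cj n (ncl N Z) ≤ ncl N Z := by
    intro n hn
    rw [cj, ncl, MonoidHom.map_closure]
    apply (Subgroup.closure_le _).2
    rintro _ ⟨_, ⟨m, hm, z, hz, rfl⟩, rfl⟩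
    have : (MulAut.conj n).toMonoidHom (m * z * m⁻¹) = (n * m) * z * (n * m)⁻¹ := by
      simp [mul_assoc]
    rw [this]
    exact conj_mem_ncl (mul_mem hn hm) hz
  intro n hn
  rw [mem_normalizer_cj]
  apply le_antisymm (key n hn)
  have := cj_mono (g := n) (key n⁻¹ (inv_mem hn))
  rwa [cj_cj, mul_inv_cancel, cj_one] at this

variable {p : ℕ} [Fact p.Prime]

section
variable {W₁ W₂ : ∀ (Q : Type u) [Group Q], Subgroup Q}

/-- the triple factorization -/
def Fac3 (p : ℕ) (W₁ W₂ : ∀ (Q : Type u) [Group Q], Subgroup Q) (H : Type u) [Group H] : Prop :=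
  ∀ T : Subgroup H, IsSylIn p T ⊤ →
    (∀ x : H, ∃ a ∈ Subgroup.centralizer ((om p T : Subgroup H) : Set H),
      ∃ b ∈ Subgroup.normalizer ((Cfsg.inducedFunctor (G := H) W₁ T : Subgroup H) : Set H), x = a * b) ∧
    (∀ x : H, ∃ a ∈ Subgroup.centralizer ((om p T : Subgroup H) : Set H),
      ∃ b ∈ Subgroup.normalizer ((Cfsg.inducedFunctor (G := H) W₂ T : Subgroup H) : Set H), x = a * b) ∧
    (∀ x : H, ∃ a ∈ Subgroup.normalizer ((Cfsg.inducedFunctor (G := H) W₁ T : Subgroup H) : Set H),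
      ∃ b ∈ Subgroup.normalizer ((Cfsg.inducedFunctor (G := H) W₂ T : Subgroup H) : Set H), x = a * b)

theorem map_mem_centralizer {G H : Type*} [Group G] [Group H] (f : G →* H) {x : G} {A : Subgroup G}
    (h : x ∈ Subgroup.centralizer (A : Set G)) : f x ∈ Subgroup.centralizer ((A.map f : Subgroup H) : Set H) := by
  rw [Subgroup.mem_centralizer_iff]
  rintro _ ⟨a, ha, rfl⟩
  rw [← map_mul, ← map_mul, Subgroup.mem_centralizer_iff.1 h a ha]

theorem Fac3.of_equiv (hW₁ : Cfsg.IsCharPFunctor.{u} p W₁) (hW₂ : Cfsg.IsCharPFunctor.{u} p W₂)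
    {H H' : Type u} [Group H] [Group H'] [Finite H] (h : Fac3 p W₁ W₂ H) (e : H ≃* H') : Fac3 p W₁ W₂ H' := by
  intro T' hT'
  haveI : Finite H' := Finite.of_equiv H e.toEquiv
  obtain ⟨T, rfl⟩ : ∃ T : Subgroup H, T.map e.toMonoidHom = T' := ⟨_, map_symm_map e T'⟩
  have hT : IsSylIn p T ⊤ := by
    have := isSylIn_top_map_equiv e.symm hT'
    rwa [map_map_symm] at this
  have hom : om p (T.map e.toMonoidHom) = (om p T).map e.toMonoidHom :=
    (om_map _ (fun x _ hx => (map_eq_one_iff e e.injective).1 hx)).symm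
  obtain ⟨h1, h2, h3⟩ := h T hT
  rw [hom, induced_map_equiv hW₁ e hT.pgroup, induced_map_equiv hW₂ e hT.pgroup]
  refine ⟨fun x => ?_, fun x => ?_, fun x => ?_⟩
  · obtain ⟨a, ha, b, hb, hx⟩ := h1 (e.symm x)
    refine ⟨e a, map_mem_centralizer e.toMonoidHom ha, e b, map_mem_normalizer e.toMonoidHom hb, ?_⟩
    rw [← map_mul, ← hx]; simp
  · obtain ⟨a, ha, b, hb, hx⟩ := h2 (e.symm x)
    refine ⟨e a, map_mem_centralizer e.toMonoidHom ha, e b, map_mem_normalizer e.toMonoidHom hb, ?_⟩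
    rw [← map_mul, ← hx]; simp
  · obtain ⟨a, ha, b, hb, hx⟩ := h3 (e.symm x)
    refine ⟨e a, map_mem_normalizer e.toMonoidHom ha, e b, map_mem_normalizer e.toMonoidHom hb, ?_⟩
    rw [← map_mul, ← hx]; simp

/-- descent to a subgroup -/
theorem ncl_sub (hW₁ : Cfsg.IsCharPFunctor.{u} p W₁) (hW₂ : Cfsg.IsCharPFunctor.{u} p W₂)
    {H : Type u} [Group H] [Finite H] (L : Subgroup H) {S : Subgroup H} (hS : IsSylIn p S L)
    (hZ : om p S ≤ Cfsg.inducedFunctor (G := H) W₁ S ⊓ Cfsg.inducedFunctor (G := H) W₂ S)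
    (ih : ∀ S' : Subgroup L, IsSylIn p S' ⊤ →
      om p S' ≤ Cfsg.inducedFunctor (G := L) W₁ S' ⊓ Cfsg.inducedFunctor (G := L) W₂ S' →
      ncl (Subgroup.normalizer ((Cfsg.inducedFunctor (G := L) W₁ S' : Subgroup L) : Set L)) (om p S') =
      ncl (Subgroup.normalizer ((Cfsg.inducedFunctor (G := L) W₂ S' : Subgroup L) : Set L)) (om p S')) :
    ncl (L ⊓ Subgroup.normalizer ((Cfsg.inducedFunctor (G := H) W₁ S : Subgroup H) : Set H)) (om p S) =
    ncl (L ⊓ Subgroup.normalizer ((Cfsg.inducedFunctor (G := H) W₂ S : Subgroup H) : Set H)) (om p S) := by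
  obtain ⟨Q, hQ⟩ := hS.exists_sylow
  subst hQ
  have hinj : ∀ x ∈ (Q : Subgroup L), L.subtype x = 1 → x = 1 := fun x _ hx => Subtype.ext hx
  have hom : om p ((Q : Subgroup L).map L.subtype) = (om p (Q : Subgroup L)).map L.subtype := (om_map _ hinj).symm
  have hi1 := induced_map hW₁ L.subtype Q.isPGroup' hinj
  have hi2 := induced_map hW₂ L.subtype Q.isPGroup' hinj
  have hn : ∀ W : Subgroup L, (Subgroup.normalizer (W : Set L)).map L.subtype =
      L ⊓ Subgroup.normalizer ((W.map L.subtype : Subgroup H) : Set H) := by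
    intro W
    ext x
    constructor
    · rintro ⟨y, hy, rfl⟩
      exact Subgroup.mem_inf.2 ⟨y.2, map_mem_normalizer L.subtype hy⟩
    · intro hx
      obtain ⟨h1, h2⟩ := Subgroup.mem_inf.1 hx
      refine ⟨⟨x, h1⟩, ?_, rfl⟩
      rw [SetLike.mem_coe, mem_normalizer_cj]
      apply Subgroup.map_injective L.subtype_injective
      rw [map_cj]
      exact mem_normalizer_cj.1 h2
  rw [hom, hi1, hi2, ← hn, ← hn, ← ncl_map, ← ncl_map]
  rw [hom, hi1, hi2] at hZ
  congr 1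
  apply ih _ (Sylow.isSylIn_top Q)
  intro x hx
  have h1 := hZ ⟨x, hx, rfl⟩
  obtain ⟨⟨y, hy, hyx⟩, ⟨z, hz, hzx⟩⟩ := Subgroup.mem_inf.1 h1
  have e1 : y = x := Subtype.ext hyx
  have e2 : z = x := Subtype.ext hzx
  rw [e1] at hy; rw [e2] at hz
  exact Subgroup.mem_inf.2 ⟨hy, hz⟩

/-- the case `N₁ = ⊤` -/
theorem ncl_top_le (hW₁ : Cfsg.IsCharPFunctor.{u} p W₁) {H : Type u} [Group H] [Finite H] {S : Subgroup H}
    (hS : IsSylIn p S ⊤) (hO : Cfsg.pPrimeCore p H = ⊥)
    (hZ : om p S ≤ Cfsg.inducedFunctor (G := H) W₁ S)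
    (hN : Subgroup.normalizer ((Cfsg.inducedFunctor (G := H) W₁ S : Subgroup H) : Set H) = ⊤)
    (N₂ : Subgroup H)
    (hfac : Constr p H → ∀ x : H, ∃ a ∈ Subgroup.centralizer ((om p S : Subgroup H) : Set H), ∃ b ∈ N₂, x = a * b)
    (hsub : ∀ L : Subgroup H, L ≠ ⊤ → S ≤ L → ncl L (om p S) ≤ ncl N₂ (om p S)) :
    ncl ⊤ (om p S) ≤ ncl N₂ (om p S) := by
  have hcf := induced_isConjugacyFunctor hW₁ H
  haveI hQn : (Cfsg.pCore p H).Normal := H1.pCore_normal p H
  have hQp : IsPGroup p (Cfsg.pCore p H) := H1.pCore_isPGroup p H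
  have h1 : ncl ⊤ (om p S) ≤ Cfsg.inducedFunctor (G := H) W₁ S := ncl_le hZ hN.ge
  have h2 : ncl ⊤ (om p S) ≤ Cfsg.pCore p H := by
    apply H1.le_pCore
    · exact Subgroup.normalizer_eq_top_iff.1 (eq_top_iff.2 (le_normalizer_ncl ⊤ _))
    · exact hS.pgroup.to_le (h1.trans (cf_le hcf hS.pgroup))
  have hZQ : om p S ≤ Cfsg.pCore p H := (le_ncl _ _).trans h2
  have hCQZ : Subgroup.centralizer ((Cfsg.pCore p H : Subgroup H) : Set H) ≤
      Subgroup.centralizer ((om p S : Subgroup H) : Set H) := Subgroup.centralizer_le hZQ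
  -- conclude from a decomposition
  have hfin : ∀ N₃ : Subgroup H, (∀ x : H, ∃ a ∈ Subgroup.centralizer ((om p S : Subgroup H) : Set H), ∃ b ∈ N₃, x = a * b) →
      ncl ⊤ (om p S) ≤ ncl N₃ (om p S) := by
    intro N₃ h3
    apply (Subgroup.closure_le _).2
    rintro x ⟨n, -, z, hz, rfl⟩
    obtain ⟨a, ha, b, hb, hab⟩ := h3 n⁻¹
    have h4 : n = b⁻¹ * a⁻¹ := by rw [← mul_inv_rev, ← hab, inv_inv]
    have h5 : a⁻¹ * z * a = z := by
      have := Subgroup.mem_centralizer_iff.1 ha z hz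
      rw [mul_assoc, this]; group
    have h6 : n * z * n⁻¹ = b⁻¹ * z * (b⁻¹)⁻¹ := by
      rw [h4]
      calc b⁻¹ * a⁻¹ * z * (b⁻¹ * a⁻¹)⁻¹ = b⁻¹ * (a⁻¹ * z * a) * b := by group
        _ = _ := by rw [h5]; group
    rw [h6]
    exact conj_mem_ncl (inv_mem hb) hz
  by_cases htop : Subgroup.normalizer (((S ⊓ Subgroup.centralizer ((Cfsg.pCore p H : Subgroup H) : Set H)) ⊔ Cfsg.pCore p H : Subgroup H) : Set H) = ⊤
  · have h3 : S ⊓ Subgroup.centralizer ((Cfsg.pCore p H : Subgroup H) : Set H) ≤ Cfsg.pCore p H := by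
      by_contra h
      exact normalizer_sup_ne_top hS h htop
    exact hfin N₂ (hfac (centralizer_le_of_inf_le hS hQn hO h3))
  · refine le_trans ?_ (hsub _ htop ?_)
    · apply hfin
      intro x
      haveI hcn := centralizer_normal' hQn
      have hsyl : IsSylIn p (S ⊓ Subgroup.centralizer ((Cfsg.pCore p H : Subgroup H) : Set H))
        (Subgroup.centralizer ((Cfsg.pCore p H : Subgroup H) : Set H)) :=
        hS.inf_of_normalizes le_top (le_normalizer_of_normal' hcn)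
      obtain ⟨n, hn, y, hy, hxy⟩ := frattini_arg hsyl (le_top) (le_normalizer_of_normal' hcn) (Subgroup.mem_top x)
      refine ⟨n, hCQZ hn, y, ?_, hxy⟩
      rw [mem_normalizer_cj, cj_sup]
      congr 1
      · exact mem_normalizer_cj.1 (Subgroup.mem_inf.1 hy).2
      · exact mem_normalizer_cj.1 (le_normalizer_of_normal' hQn (Subgroup.mem_top y))
    · intro s hs
      haveI hcn := centralizer_normal' hQn
      rw [mem_normalizer_cj, cj_sup, cj_inf, cj_eq_of_mem hs]
      congr 1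
      · congr 1
        exact mem_normalizer_cj.1 (le_normalizer_of_normal' hcn (Subgroup.mem_top s))
      · exact mem_normalizer_cj.1 (le_normalizer_of_normal' hQn (Subgroup.mem_top s))

/-- the two normal closures agree -/
theorem ncl_eq (hW₁ : Cfsg.IsCharPFunctor.{u} p W₁) (hW₂ : Cfsg.IsCharPFunctor.{u} p W₂)
    {G : Type u} [Group G] (hyp : ∀ (H : Type u) [Group H] [Finite H], Sec G H → Constr p H → Fac3 p W₁ W₂ H) :
    ∀ (n : ℕ) (H : Type u) [Group H] [Finite H], Nat.card H < n → Sec G H → ∀ S : Subgroup H, IsSylIn p S ⊤ →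
      om p S ≤ Cfsg.inducedFunctor (G := H) W₁ S ⊓ Cfsg.inducedFunctor (G := H) W₂ S →
      ncl (Subgroup.normalizer ((Cfsg.inducedFunctor (G := H) W₁ S : Subgroup H) : Set H)) (om p S) =
      ncl (Subgroup.normalizer ((Cfsg.inducedFunctor (G := H) W₂ S : Subgroup H) : Set H)) (om p S) := by
  intro n
  induction n with
  | zero => intro H _ _ h; omega
  | succ n ih =>
  intro H _ _ hn hsec S hS hZ
  have hcf₁ := induced_isConjugacyFunctor hW₁ H
  have hcf₂ := induced_isConjugacyFunctor hW₂ H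
  have hsub : ∀ L : Subgroup H, L ≠ ⊤ → S ≤ L →
      ncl (L ⊓ Subgroup.normalizer ((Cfsg.inducedFunctor (G := H) W₁ S : Subgroup H) : Set H)) (om p S) =
      ncl (L ⊓ Subgroup.normalizer ((Cfsg.inducedFunctor (G := H) W₂ S : Subgroup H) : Set H)) (om p S) := by
    intro L hL hSL
    refine ncl_sub hW₁ hW₂ L (hS.mono hSL le_top) hZ (ih L ?_ (hsec.sub L))
    have : Nat.card L < Nat.card H := by
      rw [← Subgroup.card_top (G := H)]
      exact card_lt_of_lt (lt_top_iff_ne_top.2 hL)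
    omega
  have hSN₁ : S ≤ Subgroup.normalizer ((Cfsg.inducedFunctor (G := H) W₁ S : Subgroup H) : Set H) :=
    Subgroup.le_normalizer.trans (cf_normalizer_le hcf₁ hS.pgroup)
  have hSN₂ : S ≤ Subgroup.normalizer ((Cfsg.inducedFunctor (G := H) W₂ S : Subgroup H) : Set H) :=
    Subgroup.le_normalizer.trans (cf_normalizer_le hcf₂ hS.pgroup)
  have hA₁ : ncl (Subgroup.normalizer ((Cfsg.inducedFunctor (G := H) W₁ S : Subgroup H) : Set H)) (om p S) ≤ S :=
    (ncl_le (hZ.trans inf_le_left) le_rfl).trans (cf_le hcf₁ hS.pgroup)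
  have hA₂ : ncl (Subgroup.normalizer ((Cfsg.inducedFunctor (G := H) W₂ S : Subgroup H) : Set H)) (om p S) ≤ S :=
    (ncl_le (hZ.trans inf_le_right) le_rfl).trans (cf_le hcf₂ hS.pgroup)
  by_cases hO : Cfsg.pPrimeCore p H = ⊥
  · have hfac : Constr p H → _ := fun h => hyp H hsec h S hS
    by_cases h1 : Subgroup.normalizer ((Cfsg.inducedFunctor (G := H) W₁ S : Subgroup H) : Set H) = ⊤
    · apply le_antisymm
      · rw [h1]
        refine ncl_top_le hW₁ hS hO (hZ.trans inf_le_left) h1 _ (fun h => (hfac h).2.1) ?_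
        intro L hL hSL
        have h3 := hsub L hL hSL
        rw [h1, inf_top_eq] at h3
        rw [h3]
        exact ncl_mono inf_le_right
      · rw [h1]
        exact ncl_mono le_top
    · by_cases h2 : Subgroup.normalizer ((Cfsg.inducedFunctor (G := H) W₂ S : Subgroup H) : Set H) = ⊤
      · apply le_antisymm
        · rw [h2]
          exact ncl_mono le_top
        · rw [h2]
          refine ncl_top_le hW₂ hS hO (hZ.trans inf_le_right) h2 _ (fun h => (hfac h).1) ?_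
          intro L hL hSL
          have h3 := hsub L hL hSL
          rw [h2, inf_top_eq] at h3
          rw [← h3]
          exact ncl_mono inf_le_right
      · have h3 := hsub _ h1 hSN₁
        have h4 := hsub _ h2 hSN₂
        rw [inf_idem] at h3 h4
        rw [h3, ← h4, inf_comm]
  · haveI hD : (Cfsg.pPrimeCore p H).Normal := H1.pPrimeCore_normal p H
    have hDp : (Nat.card (Cfsg.pPrimeCore p H)).Coprime p := H1.pPrimeCore_coprime p H
    have hinj : ∀ x ∈ S, QuotientGroup.mk' (Cfsg.pPrimeCore p H) x = 1 → x = 1 := by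
      intro x hx h1
      exact eq_one_of_mem_coprime hS.pgroup hDp hx ((QuotientGroup.eq_one_iff x).1 h1)
    have hcard : Nat.card (H ⧸ Cfsg.pPrimeCore p H) < n := by
      have h1 : Nat.card (H ⧸ Cfsg.pPrimeCore p H) < Nat.card H := by
        rw [Subgroup.card_eq_card_quotient_mul_card_subgroup (Cfsg.pPrimeCore p H)]
        have : 1 < Nat.card (Cfsg.pPrimeCore p H) := Subgroup.one_lt_card_iff_ne_bot _ |>.2 hO
        have h2 : 0 < Nat.card (H ⧸ Cfsg.pPrimeCore p H) := Nat.card_pos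
        nlinarith
      omega
    have hom := om_map (p := p) (QuotientGroup.mk' (Cfsg.pPrimeCore p H)) hinj
    have hi1 := induced_map hW₁ (QuotientGroup.mk' (Cfsg.pPrimeCore p H)) hS.pgroup hinj
    have hi2 := induced_map hW₂ (QuotientGroup.mk' (Cfsg.pPrimeCore p H)) hS.pgroup hinj
    have h1 := ih (H ⧸ Cfsg.pPrimeCore p H) hcard
      (hsec.quot (QuotientGroup.mk' _) (QuotientGroup.mk'_surjective _))
      (S.map (QuotientGroup.mk' (Cfsg.pPrimeCore p H))) (isSylIn_map_mk hS) (by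
        rw [← hom, hi1, hi2]
        exact le_inf (Subgroup.map_mono (hZ.trans inf_le_left)) (Subgroup.map_mono (hZ.trans inf_le_right)))
    have hnm : ∀ V : Subgroup H, IsPGroup p V →
        Subgroup.normalizer ((V.map (QuotientGroup.mk' (Cfsg.pPrimeCore p H)) : Subgroup (H ⧸ Cfsg.pPrimeCore p H)) :
          Set (H ⧸ Cfsg.pPrimeCore p H)) =
        (Subgroup.normalizer (V : Set H)).map (QuotientGroup.mk' (Cfsg.pPrimeCore p H)) := by
      intro V hV
      apply le_antisymm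
      · intro y hy
        obtain ⟨x, rfl⟩ := QuotientGroup.mk'_surjective _ y
        obtain ⟨d, hd, hdx⟩ := exists_lift_normalizer hV hDp hy
        refine ⟨d * x, hdx, ?_⟩
        have : QuotientGroup.mk' (Cfsg.pPrimeCore p H) d = 1 := (QuotientGroup.eq_one_iff d).2 hd
        rw [map_mul, this, one_mul]
      · rintro _ ⟨x, hx, rfl⟩
        exact map_mem_normalizer _ hx
    rw [← hom, hi1, hi2, hnm _ (hS.pgroup.to_le (cf_le hcf₁ hS.pgroup)), hnm _ (hS.pgroup.to_le (cf_le hcf₂ hS.pgroup)),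
      ← ncl_map, ← ncl_map] at h1
    -- both closures are in `S`
    have key : ∀ A B : Subgroup H, A ≤ S → B ≤ S → A.map (QuotientGroup.mk' (Cfsg.pPrimeCore p H)) ≤
        B.map (QuotientGroup.mk' (Cfsg.pPrimeCore p H)) → A ≤ B := by
      intro A B hA hB hAB x hx
      obtain ⟨y, hy, hyx⟩ := hAB ⟨x, hx, rfl⟩
      have h2 : x * y⁻¹ = 1 := by
        apply hinj _ (mul_mem (hA hx) (inv_mem (hB hy)))
        rw [map_mul, map_inv, hyx, mul_inv_cancel]
      rw [mul_inv_eq_one.1 h2]; exact hy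
    exact le_antisymm (key _ _ hA₁ hA₂ h1.le) (key _ _ hA₂ hA₁ h1.ge)

end

end Cfsg.Agent.H14
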