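import Cfsg.Agent.H14.SecHyp2
import Cfsg.Agent.L.NormZero
import Cfsg.Prelude.Def_PLocal
import Cfsg.Agent.H23.Coprime2
import Cfsg.Agent.H1.Chief
import Cfsg.Agent.H18.PCore
import Cfsg.Prelude.Def_LocalEven

/-!
H14/Avg: an averaging argument replacing weight space decompositions.
-/

set_option autoImplicit false

namespace Cfsg.Agent.H14

universe u

open scoped commutatorElement
open Subgroup

variable {p : ℕ} [Fact p.Prime]

/-- `E` an abelian `p'`-group of automorphisms of an elementary abelian `p`-group, normalized by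
`γ` of `p`-power order with `1 + γ + ⋯ + γ^(p-1) = 0`: then `γ` centralizes `E`. -/
theorem avg {A : Type*} [CommGroup A] (hA : ∀ a : A, a ^ p = 1) (E : Subgroup (MulAut A)) [Finite E]
    (hE : (Nat.card E).Coprime p) (hcomm : ∀ a ∈ E, ∀ b ∈ E, a * b = b * a) (γ : MulAut A)
    (hγ : ∃ k : ℕ, γ ^ p ^ k = 1) (hn : ∀ e ∈ E, γ * e * γ⁻¹ ∈ E)
    (hsum : ∀ a : A, ∏ i ∈ Finset.range p, (γ ^ i) a = 1) : ∀ e ∈ E, γ * e * γ⁻¹ = e := by
  classical
  haveI : Fintype E := Fintype.ofFinite E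
  have hni : ∀ (i : ℕ), ∀ e ∈ E, γ ^ i * e * (γ ^ i)⁻¹ ∈ E := by
    intro i
    induction i with
    | zero => intro e he; simpa using he
    | succ i ih =>
      intro e he
      have h1 : γ ^ (i+1) * e * (γ ^ (i+1))⁻¹ = γ * (γ ^ i * e * (γ ^ i)⁻¹) * γ⁻¹ := by
        rw [pow_succ']; group
      rw [h1]
      exact hn _ (ih e he)
  -- the commutator maps
  let c : ℕ → E → E := fun i e => ⟨(e : MulAut A)⁻¹ * (γ ^ i * e * (γ ^ i)⁻¹), mul_mem (inv_mem e.2) (hni i e e.2)⟩
  have hcmul : ∀ (i : ℕ) (a b : E), c i (a * b) = c i a * c i b := by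
    intro i a b
    apply Subtype.ext
    change (((a : MulAut A) * (b : MulAut A))⁻¹ * (γ ^ i * ((a : MulAut A) * b) * (γ ^ i)⁻¹)) =
      ((a : MulAut A)⁻¹ * (γ ^ i * a * (γ ^ i)⁻¹)) * ((b : MulAut A)⁻¹ * (γ ^ i * b * (γ ^ i)⁻¹))
    have h1 := hcomm _ (inv_mem b.2) _ (mul_mem (inv_mem a.2) (hni i a a.2))
    calc (((a : MulAut A) * (b : MulAut A))⁻¹ * (γ ^ i * ((a : MulAut A) * b) * (γ ^ i)⁻¹))
        = ((b : MulAut A)⁻¹ * ((a : MulAut A)⁻¹ * (γ ^ i * a * (γ ^ i)⁻¹))) * (γ ^ i * b * (γ ^ i)⁻¹) := by group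
      _ = (((a : MulAut A)⁻¹ * (γ ^ i * a * (γ ^ i)⁻¹)) * (b : MulAut A)⁻¹) * (γ ^ i * b * (γ ^ i)⁻¹) := by rw [h1]
      _ = _ := by group
  have hrange : ∀ (i : ℕ), i.Coprime p → ∀ e : E, ∃ e' : E, c i e' = c 1 e := by
    intro i hi e
    obtain ⟨k, hk⟩ := hγ
    have hord : i.Coprime (orderOf γ) := by
      refine Nat.Coprime.coprime_dvd_right (orderOf_dvd_of_pow_eq_one hk) (hi.pow_right k)
    obtain ⟨m, hm⟩ := exists_pow_eq_self_of_coprime hord
    have key : ∀ l : ℕ, ∃ e' : E, (c i e' : MulAut A) = (e : MulAut A)⁻¹ * ((γ ^ i) ^ l * e * ((γ ^ i) ^ l)⁻¹) := by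
      intro l
      induction l with
      | zero =>
        refine ⟨1, ?_⟩
        have : c i 1 = 1 := by
          have := hcmul i 1 1
          rw [mul_one] at this
          exact (left_eq_mul.1 this)
        rw [this]; simp
      | succ l ih =>
        obtain ⟨e', he'⟩ := ih
        have hmem : (γ ^ i) ^ l * e * ((γ ^ i) ^ l)⁻¹ ∈ E := by
          rw [← pow_mul]; exact hni _ e e.2
        refine ⟨e' * ⟨_, hmem⟩, ?_⟩
        rw [hcmul, Subgroup.coe_mul, he']
        change (e : MulAut A)⁻¹ * ((γ ^ i) ^ l * e * ((γ ^ i) ^ l)⁻¹) *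
          (((γ ^ i) ^ l * e * ((γ ^ i) ^ l)⁻¹)⁻¹ * (γ ^ i * ((γ ^ i) ^ l * e * ((γ ^ i) ^ l)⁻¹) * (γ ^ i)⁻¹)) = _
        rw [pow_succ' (γ ^ i) l]
        group
    obtain ⟨e', he'⟩ := key m
    refine ⟨e', Subtype.ext ?_⟩
    rw [he', hm]
    change _ = (e : MulAut A)⁻¹ * (γ ^ 1 * e * (γ ^ 1)⁻¹)
    rw [pow_one]
  -- main
  intro e₀ he₀
  obtain ⟨f, hf⟩ : ∃ f, f = c 1 ⟨e₀, he₀⟩ := ⟨_, rfl⟩
  have hmain : ∀ a : A, (f : MulAut A) a = a := by
    intro a
    have hp1 : p = (p - 1) + 1 := (Nat.sub_add_cancel (Fact.out : p.Prime).one_le).symm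
    have h1 : ∀ e : E, ∏ j ∈ Finset.range (p-1), (c (j+1) e : MulAut A) ((γ ^ (j+1)) a) = a⁻¹ := by
      intro e
      have h2 := hsum ((e : MulAut A) a)
      rw [hp1, Finset.prod_range_succ'] at h2
      have h3 := congrArg ((e : MulAut A)⁻¹ : MulAut A) h2
      rw [map_mul, map_prod, map_one] at h3
      simp only [pow_zero, MulAut.one_apply, MulAut.inv_apply_self] at h3
      rw [← eq_inv_iff_mul_eq_one] at h3
      rw [← h3]
      refine Finset.prod_congr rfl (fun j _ => ?_)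
      change ((e : MulAut A)⁻¹ * (γ ^ (j+1) * e * (γ ^ (j+1))⁻¹)) ((γ ^ (j+1)) a) = _
      simp only [MulAut.mul_apply, MulAut.inv_apply_self]
    have h2 : ∏ e : E, ∏ j ∈ Finset.range (p-1), (c (j+1) e : MulAut A) ((γ ^ (j+1)) a) = (a⁻¹) ^ Nat.card E := by
      rw [Finset.prod_congr rfl (fun e _ => h1 e), Finset.prod_const, Finset.card_univ, Nat.card_eq_fintype_card]
    rw [Finset.prod_comm] at h2
    have h3 : (f : MulAut A) (∏ j ∈ Finset.range (p-1), ∏ e : E, (c (j+1) e : MulAut A) ((γ ^ (j+1)) a)) =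
        ∏ j ∈ Finset.range (p-1), ∏ e : E, (c (j+1) e : MulAut A) ((γ ^ (j+1)) a) := by
      rw [map_prod]
      refine Finset.prod_congr rfl (fun j hj => ?_)
      obtain ⟨e', he'⟩ := hrange (j+1) (by
        rw [Finset.mem_range] at hj
        exact Nat.Coprime.symm ((Nat.Prime.coprime_iff_not_dvd (Fact.out : p.Prime)).2
          (Nat.not_dvd_of_pos_of_lt (Nat.succ_pos j) (by omega)))) ⟨e₀, he₀⟩
      rw [← hf] at he'
      rw [map_prod]
      refine Fintype.prod_equiv (Equiv.mulLeft e') _ _ (fun e => ?_)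
      rw [Equiv.coe_mulLeft, hcmul, he']
      rfl
    rw [h2] at h3
    rw [map_pow, map_inv] at h3
    have h4 : ((f : MulAut A) a * a⁻¹) ^ Nat.card E = 1 := by
      rw [mul_pow, inv_pow, ← inv_inj, mul_inv, inv_inv, ← inv_pow, h3, inv_pow]
      simp
    have h5 : ((f : MulAut A) a * a⁻¹) ^ p = 1 := hA _
    have h6 : orderOf ((f : MulAut A) a * a⁻¹) = 1 :=
      Nat.eq_one_of_dvd_coprimes hE (orderOf_dvd_of_pow_eq_one h4) (orderOf_dvd_of_pow_eq_one h5)
    exact mul_inv_eq_one.1 (orderOf_eq_one_iff.1 h6)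
  have h1 : (f : MulAut A) = 1 := MulEquiv.ext hmain
  have h2 : e₀⁻¹ * (γ ^ 1 * e₀ * (γ ^ 1)⁻¹) = 1 := by
    rw [← h1, hf]
  rw [pow_one, inv_mul_eq_one] at h2
  exact h2.symm

/-- the averaging argument for a group acting by conjugation -/
theorem avg_conj {Y : Type*} [Group Y] [Finite Y] {A : Subgroup Y} [hAn : A.Normal] (hA1 : ∀ a ∈ A, a ^ p = 1)
    (hA2 : ∀ a ∈ A, ∀ b ∈ A, a * b = b * a) {g : Y} (hg : ∃ k : ℕ, g ^ p ^ k = 1)
    (hI : Cfsg.iterCommutator A (zpowers g) (p - 1) = ⊥) (K : Subgroup Y) (hKg : ∀ k ∈ K, g * k * g⁻¹ ∈ K)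
    (hKc : ∀ a ∈ K, ∀ b ∈ K, ⁅a, b⁆ ∈ centralizer (A : Set Y))
    (hKp : ∃ m : ℕ, m.Coprime p ∧ ∀ a ∈ K, a ^ m ∈ centralizer (A : Set Y)) :
    ∀ k ∈ K, g * k * g⁻¹ * k⁻¹ ∈ centralizer (A : Set Y) := by
  letI : CommGroup A :=
    { (inferInstance : Group A) with mul_comm := fun a b => Subtype.ext (hA2 a a.2 b b.2) }
  have hker : ∀ y : Y, MulAut.conjNormal (H := A) y = 1 ↔ y ∈ centralizer (A : Set Y) := by
    intro y
    rw [mem_centralizer_iff]
    constructor
    · intro h a ha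
      have h1 := congrArg (fun φ : MulAut A => ((φ ⟨a, ha⟩ : A) : Y)) h
      simp only [MulAut.conjNormal_apply, MulAut.one_apply] at h1
      exact (mul_inv_eq_iff_eq_mul.1 h1).symm
    · intro h
      ext a
      rw [MulAut.conjNormal_apply, MulAut.one_apply, mul_inv_eq_iff_eq_mul]
      exact (h a a.2).symm
  have hnorm : ∀ a : A, ∏ i ∈ Finset.range p, ((MulAut.conjNormal (H := A) g) ^ i) a = 1 := by
    intro a
    let T : Module.End ℤ (Additive A) := (MonoidHom.toAdditive (MulAut.conjNormal (H := A) g).toMonoidHom).toIntLinearMap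
    have hT : ∀ w : Additive A, ((T w).toMul : Y) = g * (w.toMul : Y) * g⁻¹ := fun w => rfl
    have hTi : ∀ (i : ℕ) (w : Additive A), ((T ^ i) w).toMul = ((MulAut.conjNormal (H := A) g) ^ i) w.toMul := by
      intro i
      induction i with
      | zero => intro w; simp
      | succ i ih =>
        intro w
        rw [pow_succ, Module.End.mul_apply, ih, pow_succ, MulAut.mul_apply]
        rfl
    have hsub : ∀ (v w : Additive A), ((v - w).toMul : Y) = (v.toMul : Y) * (w.toMul : Y)⁻¹ := fun v w => by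
      simp [div_eq_mul_inv]
    obtain ⟨v, hv⟩ : ∃ v : Additive A, v = Additive.ofMul a := ⟨_, rfl⟩
    have h1 : ∀ i : ℕ, (((((T - 1) ^ i) v : Additive A).toMul : A) : Y) ∈
        Cfsg.iterCommutator A (zpowers g) i := by
      intro i
      induction i with
      | zero => rw [hv]; exact a.2
      | succ i ih =>
        rw [pow_succ', Module.End.mul_apply]
        set w := ((T - 1) ^ i) v with hw
        have h2 : (T - 1) w = T w - w := rfl
        rw [h2, hsub, hT]
        show _ ∈ ⁅Cfsg.iterCommutator A (zpowers g) i, zpowers g⁆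
        rw [commutator_comm]
        exact commutator_mem_commutator (mem_zpowers g) ih
    have h2 := h1 (p - 1)
    rw [hI, mem_bot] at h2
    have h3 : ((T - 1) ^ (p - 1)) v = 0 := by
      apply Additive.toMul.injective
      exact Subtype.ext h2
    have h4 : p • v = 0 := by
      apply Additive.toMul.injective
      rw [toMul_nsmul, hv]
      exact Subtype.ext (by simpa using hA1 _ a.2)
    have h5 := L.norm_eq_zero_of_pow p T v h4 h3
    have h7 := congrArg (fun w : Additive A => w.toMul) h5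
    simp only [toMul_sum, toMul_zero] at h7
    rw [← h7]
    refine Finset.prod_congr rfl (fun i _ => ?_)
    rw [hTi, hv]
    rfl
  obtain ⟨m, hm, hKm⟩ := hKp
  have hE : (Nat.card (K.map (MulAut.conjNormal (H := A)))).Coprime p := by
    have h0 : ∀ x ∈ K.map (MulAut.conjNormal (H := A)), x ^ m = 1 := by
      rintro _ ⟨k, hk, rfl⟩
      rw [← map_pow]
      exact (hker _).2 (hKm k hk)
    have h1 : ∀ q : ℕ, q.Prime → q ∣ Nat.card (K.map (MulAut.conjNormal (H := A))) → q ∣ m := by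
      intro q hq hd
      haveI := Fact.mk hq
      obtain ⟨x, hx⟩ := exists_prime_orderOf_dvd_card' q hd
      rw [← hx, ← Subgroup.orderOf_coe]
      exact orderOf_dvd_of_pow_eq_one (h0 x x.2)
    apply Nat.Coprime.symm
    rw [Nat.Prime.coprime_iff_not_dvd (Fact.out : p.Prime)]
    intro hd
    have h2 := h1 p Fact.out hd
    exact (Fact.out : p.Prime).one_lt.ne' (Nat.eq_one_of_dvd_coprimes hm h2 dvd_rfl)
  intro k hk
  obtain ⟨j, hj⟩ := hg
  have h1 := avg (p := p) (A := A) (fun a => Subtype.ext (hA1 a a.2)) (K.map (MulAut.conjNormal (H := A))) hE ?_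
    (MulAut.conjNormal (H := A) g) ⟨j, by rw [← map_pow, hj, map_one]⟩ ?_ hnorm
    (MulAut.conjNormal (H := A) k) ⟨k, hk, rfl⟩
  · rw [← hker, map_mul, map_mul, map_mul, map_inv, map_inv, h1, mul_inv_cancel]
  · rintro _ ⟨a, ha, rfl⟩ _ ⟨b, hb, rfl⟩
    have h2 := (hker _).2 (hKc a ha b hb)
    rw [map_commutatorElement, commutatorElement_eq_one_iff_mul_comm] at h2
    exact h2
  · rintro _ ⟨a, ha, rfl⟩
    exact ⟨g * a * g⁻¹, hKg a ha, by simp only [map_mul, map_inv]⟩

theorem inf_bot_of_coprime {Y : Type*} [Group Y] {T N : Subgroup Y} (hT : IsPGroup p T)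
    (hN : (Nat.card N).Coprime p) : T ⊓ N = ⊥ := by
  rw [eq_bot_iff]
  intro x hx
  obtain ⟨h1, h2⟩ := mem_inf.1 hx
  obtain ⟨k, hk⟩ := hT ⟨x, h1⟩
  have h3 : x ^ p ^ k = 1 := congrArg Subtype.val hk
  have h4 : orderOf x ∣ p ^ k := orderOf_dvd_of_pow_eq_one h3
  have h5 : orderOf x ∣ Nat.card N := by
    have := orderOf_dvd_natCard (⟨x, h2⟩ : N)
    rwa [Subgroup.orderOf_mk] at this
  exact orderOf_eq_one_iff.1 (Nat.eq_one_of_dvd_coprimes (hN.pow_right k) h5 h4)

theorem coatom_facts {Y : Type*} [Group Y] [Finite Y] {N T : Subgroup Y} [hN : N.Normal]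
    (hNp : (Nat.card N).Coprime p) (hT : IsPGroup p T) (hTc : IsCoatom T) (hNb : N ≠ ⊥) :
    (∀ L : Subgroup Y, T ≤ normalizer (L : Set Y) → L ≤ N → L = ⊥ ∨ L = N) ∧ ⁅N, N⁆ = ⊥ ∧ T ⊔ N = ⊤ := by
  have hTN : T ⊓ N = ⊥ := inf_bot_of_coprime hT hNp
  have h1 : ∀ L : Subgroup Y, T ≤ normalizer (L : Set Y) → L ≤ N → L = ⊥ ∨ L = N := by
    intro L hL hLN
    rcases hTc.le_iff.1 (le_sup_left : T ≤ T ⊔ L) with h | h
    · right
      apply le_antisymm hLN
      intro x hx
      have h2 : x ∈ T ⊔ L := by rw [h]; trivial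
      rw [sup_comm, H23.mem_sup_iff_of_le_normalizer hL] at h2
      obtain ⟨l, hl, t, ht, rfl⟩ := h2
      have h3 : t ∈ T ⊓ N := by
        refine mem_inf.2 ⟨ht, ?_⟩
        have := mul_mem (inv_mem (hLN hl)) hx
        simpa using this
      rw [hTN, mem_bot] at h3
      rw [h3, mul_one]; exact hl
    · left
      rw [eq_bot_iff, ← hTN]
      refine le_inf ?_ hLN
      rw [← h]; exact le_sup_right
  refine ⟨h1, ?_, ?_⟩
  · have h2 : 1 < Nat.card N := (Subgroup.one_lt_card_iff_ne_bot N).2 hNb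
    obtain ⟨q, hq, hqd⟩ := Nat.exists_prime_and_dvd h2.ne'
    haveI := Fact.mk hq
    have hTn : T ≤ normalizer (N : Set Y) := by rw [normalizer_eq_top_iff.2 hN]; exact le_top
    have hcop : (Nat.card T).Coprime (Nat.card N) := by
      obtain ⟨k, hk⟩ := IsPGroup.iff_card.1 hT
      rw [hk]; exact (hNp.pow_right k).symm
    haveI : Group.IsNilpotent T := hT.isNilpotent
    obtain ⟨R, hR, hTR⟩ := H23.exists_invariant_sylow hTn hcop (Or.inl inferInstance) q
    have hR1 : R ≠ ⊥ := by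
      intro h
      have := hR.not_dvd
      rw [h, relIndex_bot_left] at this
      exact this hqd
    have hRN : R = N := (h1 R hTR hR.le).resolve_left hR1
    have hNq : IsPGroup q N := hRN ▸ hR.isPGroup
    have h3 := H23.commutator_lt_of_isPGroup hNq hNq le_normalizer hNb
    exact (h1 ⁅N, N⁆ (by
      rw [normalizer_eq_top_iff.2 (inferInstance : (⁅N, N⁆).Normal)]; exact le_top) h3.le).resolve_right h3.ne
  · rcases hTc.le_iff.1 (le_sup_left : T ≤ T ⊔ N) with h | h
    · exact h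
    · exfalso
      apply hNb
      rw [eq_bot_iff, ← hTN]
      refine le_inf ?_ le_rfl
      rw [← h]; exact le_sup_right

/-- the key step -/
theorem npc_key {Y : Type*} [Group Y] [Finite Y] {T : Subgroup Y} (hT : IsSylIn p T ⊤) (hTc : IsCoatom T)
    (hN : Cfsg.HasNormalPComplement p (Y ⧸ Cfsg.pCore p Y)) {g : Y} (hg : g ∈ T) (hg' : g ∉ Cfsg.pCore p Y)
    {U : Subgroup Y} (hU : U.Normal) (hUp : IsPGroup p U) (hU1 : U ≠ ⊥)
    (hmin : ∀ N : Subgroup Y, N.Normal → N ≤ U → N = ⊥ ∨ N = U)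
    (hI : Cfsg.iterCommutator U (zpowers g) (p - 1) = ⊥) : ⁅U, zpowers g⁆ = ⊥ := by
  obtain ⟨N, hNn, hNp, k, hk⟩ := H2.hasNormalPComplement_iff.1 hN
  have hNc : (Nat.card N).Coprime p := ((Nat.Prime.coprime_iff_not_dvd (Fact.out : p.Prime)).2 hNp).symm
  haveI hQn : (Cfsg.pCore p Y).Normal := H1.pCore_normal p Y
  have hQp : IsPGroup p (Cfsg.pCore p Y) := H1.pCore_isPGroup p Y
  have hQT : Cfsg.pCore p Y ≤ T := by
    obtain ⟨S, rfl⟩ := hT.eq_sylow
    exact H1.pCore_le_sylow S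
  obtain ⟨f, hf⟩ : ∃ f : Y →* Y ⧸ Cfsg.pCore p Y, f = QuotientGroup.mk' (Cfsg.pCore p Y) := ⟨_, rfl⟩
  have hfs : Function.Surjective f := by rw [hf]; exact QuotientGroup.mk'_surjective _
  have hker : f.ker = Cfsg.pCore p Y := by rw [hf]; exact QuotientGroup.ker_mk' _
  have hmem : ∀ x, f x = 1 ↔ x ∈ Cfsg.pCore p Y := fun x => by rw [← MonoidHom.mem_ker, hker]
  have hcomapT : (T.map f).comap f = T := by
    rw [Subgroup.comap_map_eq, hker]; exact sup_eq_left.2 hQT
  have hTb : IsPGroup p (T.map f) := hT.pgroup.map _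
  have hTbc : IsCoatom (T.map f) := by
    refine ⟨?_, ?_⟩
    · intro h
      apply hTc.1
      rw [← hcomapT, h, Subgroup.comap_top]
    · intro M hM
      have h1 : T < M.comap f := by
        rw [← hcomapT]
        exact (Subgroup.comap_lt_comap_of_surjective hfs).2 hM
      have h2 := hTc.2 _ h1
      rw [← Subgroup.map_comap_eq_self_of_surjective hfs M, h2]
      exact Subgroup.map_top_of_surjective _ hfs
  have hNb : N ≠ ⊥ := by
    intro h
    apply hTbc.1
    rw [h, Subgroup.index_bot] at hk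
    have h1 : IsPGroup p (⊤ : Subgroup (Y ⧸ Cfsg.pCore p Y)) :=
      (IsPGroup.iff_card.2 ⟨k, hk⟩ : IsPGroup p (Y ⧸ Cfsg.pCore p Y)).of_equiv Subgroup.topEquiv.symm
    have h2 : IsSylIn p (T.map f) ⊤ := by rw [hf]; exact isSylIn_map_mk hT
    exact (h2.eq_of_le le_top le_rfl h1).symm
  obtain ⟨hA, hB, hC⟩ := coatom_facts hNc hTb hTbc hNb
  have hpc : Cfsg.pCore p (Y ⧸ Cfsg.pCore p Y) = ⊥ := H1.pCore_quotient_eq_bot p
  -- the centralizer of `U`
  haveI hCn : (centralizer (U : Set Y)).Normal := centralizer_normal' hU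
  have hQC : Cfsg.pCore p Y ≤ centralizer (U : Set Y) := by
    have h1 := H23.commutator_lt_of_isPGroup hUp hQp (le_normalizer_of_normal' hU) hU1
    have h2 := (hmin ⁅U, Cfsg.pCore p Y⁆ inferInstance h1.le).resolve_right h1.ne
    rw [commutator_comm, commutator_eq_bot_iff_le_centralizer] at h2
    exact h2
  -- U elementary abelian
  haveI hUnil : Group.IsNilpotent U := hUp.isNilpotent
  obtain ⟨hUc, q, hq, hUq, hUe⟩ := H1.minimal_normal_solvable hU hU1 hmin inferInstance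
  have hqp : q = p := by
    haveI := Fact.mk hq
    haveI : Nontrivial U := (Subgroup.nontrivial_iff_ne_bot U).2 hU1
    obtain ⟨a, ha, ha'⟩ := (IsPGroup.nontrivial_iff_card hUp).1 inferInstance
    obtain ⟨b, hb, hb'⟩ := (IsPGroup.nontrivial_iff_card hUq).1 inferInstance
    have h1 : p ∣ q ^ b := by rw [← hb', ha']; exact dvd_pow_self p ha.ne'
    exact ((Nat.prime_dvd_prime_iff_eq (Fact.out : p.Prime) hq).1 ((Fact.out : p.Prime).dvd_of_dvd_pow h1)).symm
  subst hqp
  have hUcomm : ∀ a ∈ U, ∀ b ∈ U, a * b = b * a := by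
    intro a ha b hb
    exact congrArg Subtype.val (hUc.is_comm.comm ⟨a, ha⟩ ⟨b, hb⟩)
  -- the subgroup `D`
  obtain ⟨K, hK⟩ : ∃ K, K = N.comap f := ⟨_, rfl⟩
  haveI hKn : K.Normal := by rw [hK]; exact hNn.comap f
  obtain ⟨D, hD⟩ : ∃ D, D = K ⊓ centralizer (U : Set Y) := ⟨_, rfl⟩
  haveI hDn : D.Normal := by rw [hD]; infer_instance
  rcases hTc.le_iff.1 (le_sup_left : T ≤ T ⊔ D) with h | h
  · -- T ⊔ D = ⊤
    have hTU : T ≤ normalizer (U : Set Y) := le_normalizer_of_normal' hU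
    have h1 := H23.commutator_lt_of_isPGroup hUp hT.pgroup hTU hU1
    have hn : (⁅U, T⁆).Normal := by
      rw [← normalizer_eq_top_iff, eq_top_iff, ← h]
      refine sup_le (H1.right_le_normalizer_commutator U T) ?_
      rw [hD]
      refine inf_le_right.trans ?_
      intro x hx
      rw [mem_normalizer_cj]
      exact cj_eq_of_mem_centralizer (Subgroup.centralizer_le h1.le hx)
    have h2 := (hmin ⁅U, T⁆ hn h1.le).resolve_right h1.ne
    rw [eq_bot_iff, ← h2]
    exact commutator_mono le_rfl (by rwa [zpowers_le])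
  · exfalso
    have hDT : D ≤ T := by rw [← h]; exact le_sup_right
    have hDQ : D ≤ Cfsg.pCore q Y := H1.le_pCore hDn (hT.pgroup.to_le hDT)
    have hcom : ∀ x ∈ K, g * x * g⁻¹ * x⁻¹ ∈ centralizer (U : Set Y) := by
      refine avg_conj (A := U) hUe hUcomm ?_ hI K (fun x hx => hKn.conj_mem x hx g) ?_ ⟨Nat.card N, hNc, ?_⟩
      · obtain ⟨j, hj⟩ := hT.pgroup ⟨g, hg⟩
        exact ⟨j, congrArg Subtype.val hj⟩
      · intro a ha b hb
        apply hQC
        rw [← hmem, ← mem_bot, ← hB, map_commutatorElement]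
        rw [hK] at ha hb
        exact commutator_mem_commutator ha hb
      · intro a ha
        apply hQC
        rw [← hmem, map_pow]
        rw [hK] at ha
        exact congrArg Subtype.val (pow_card_eq_one' (x := (⟨f a, ha⟩ : N)))
    have hgN : f g ∈ centralizer (N : Set (Y ⧸ Cfsg.pCore q Y)) := by
      rw [mem_centralizer_iff]
      intro n hn
      obtain ⟨x, rfl⟩ := hfs n
      have hxK : x ∈ K := by rw [hK]; exact hn
      have h1 : g * x * g⁻¹ * x⁻¹ ∈ D := by
        rw [hD]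
        exact mem_inf.2 ⟨mul_mem (hKn.conj_mem x hxK g) (inv_mem hxK), hcom x hxK⟩
      have h2 := hDQ h1
      rw [← hmem] at h2
      simp only [map_mul, map_inv] at h2
      rw [mul_inv_eq_one, mul_inv_eq_iff_eq_mul] at h2
      exact h2.symm
    have hE : (T.map f ⊓ centralizer (N : Set (Y ⧸ Cfsg.pCore q Y))).Normal := by
      haveI hcn := centralizer_normal' hNn
      rw [← normalizer_eq_top_iff, eq_top_iff, ← hC]
      refine sup_le ?_ ?_
      · intro t ht
        rw [mem_normalizer_cj, cj_inf, cj_eq_of_mem ht]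
        congr 1
        exact mem_normalizer_cj.1 (le_normalizer_of_normal' hcn (mem_top t))
      · intro x hx
        rw [mem_normalizer_cj]
        apply cj_eq_of_mem_centralizer
        rw [mem_centralizer_iff]
        intro y hy
        exact (mem_centralizer_iff.1 (mem_inf.1 hy).2 x hx).symm
    have h1 : f g ∈ Cfsg.pCore q (Y ⧸ Cfsg.pCore q Y) :=
      H1.le_pCore hE (hTb.to_le inf_le_left) (mem_inf.2 ⟨⟨g, hg, rfl⟩, hgN⟩)
    rw [hpc, mem_bot] at h1
    exact hg' ((hmem g).1 h1)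

theorem iterCommutator_map {X Y : Type*} [Group X] [Group Y] (f : X →* Y) (U K : Subgroup X) (n : ℕ) :
    Cfsg.iterCommutator (U.map f) (K.map f) n = (Cfsg.iterCommutator U K n).map f := by
  induction n with
  | zero => rfl
  | succ n ih =>
    change ⁅Cfsg.iterCommutator (U.map f) (K.map f) n, K.map f⁆ = (⁅Cfsg.iterCommutator U K n, K⁆).map f
    rw [ih, Subgroup.map_commutator]

theorem npc_key' {X : Type*} [Group X] [Finite X] {T : Subgroup X} (hT : IsSylIn p T ⊤) (hTc : IsCoatom T)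
    (hN : Cfsg.HasNormalPComplement p (X ⧸ Cfsg.pCore p X)) {g : X} (hg : g ∈ T) (hg' : g ∉ Cfsg.pCore p X)
    {U V : Subgroup X} (hUV : Cfsg.IsChiefFactor U V) (hUQ : U ≤ Cfsg.pCore p X)
    (hI : Cfsg.iterCommutator U (zpowers g) (p - 1) ≤ V) : ⁅U, zpowers g⁆ ≤ V := by
  obtain ⟨hVU, hUn, hVn, hch⟩ := hUV
  haveI := hUn
  haveI := hVn
  haveI hQn : (Cfsg.pCore p X).Normal := H1.pCore_normal p X
  have hQp : IsPGroup p (Cfsg.pCore p X) := H1.pCore_isPGroup p X
  have hVp : IsPGroup p V := hQp.to_le (hVU.le.trans hUQ)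
  have hQT : Cfsg.pCore p X ≤ T := by
    obtain ⟨S, rfl⟩ := hT.eq_sylow
    exact H1.pCore_le_sylow S
  have hcore : Cfsg.pCore p (X ⧸ V) = (Cfsg.pCore p X).map (QuotientGroup.mk' V) :=
    H18.pCore_quotient_of_isPGroup hVp
  have hfs : Function.Surjective (QuotientGroup.mk' V) := QuotientGroup.mk'_surjective V
  have hcm : ∀ K : Subgroup X, V ≤ K → (K.map (QuotientGroup.mk' V)).comap (QuotientGroup.mk' V) = K := by
    intro K hK
    rw [Subgroup.comap_map_eq, QuotientGroup.ker_mk']; exact sup_eq_left.2 hK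
  have h := npc_key (p := p) (T := T.map (QuotientGroup.mk' V)) (isSylIn_map_mk hT) ?_ ?_
    (g := QuotientGroup.mk' V g) ⟨g, hg, rfl⟩ ?_ (U := U.map (QuotientGroup.mk' V)) (hUn.map _ hfs)
    ((hQp.to_le hUQ).map _) ?_ ?_ ?_
  · rw [← MonoidHom.map_zpowers, ← Subgroup.map_commutator, Subgroup.map_eq_bot_iff, QuotientGroup.ker_mk'] at h
    exact h
  · refine ⟨?_, ?_⟩
    · intro h
      apply hTc.1
      rw [← hcm T (hVU.le.trans (hUQ.trans hQT)), h, Subgroup.comap_top]
    · intro M hM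
      have h1 : T < M.comap (QuotientGroup.mk' V) := by
        rw [← hcm T (hVU.le.trans (hUQ.trans hQT))]
        exact (Subgroup.comap_lt_comap_of_surjective hfs).2 hM
      have h2 := hTc.2 _ h1
      rw [← Subgroup.map_comap_eq_self_of_surjective hfs M, h2]
      exact Subgroup.map_top_of_surjective _ hfs
  · have hle : Cfsg.pCore p X ≤ (Cfsg.pCore p (X ⧸ V)).comap (QuotientGroup.mk' V) := by
      rw [hcore]; exact Subgroup.le_comap_map _ _
    haveI : (Cfsg.pCore p (X ⧸ V)).Normal := H1.pCore_normal p _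
    refine H2.HasNormalPComplement.of_surjective hN (QuotientGroup.map _ _ (QuotientGroup.mk' V) hle) ?_
    intro y
    obtain ⟨y', rfl⟩ := QuotientGroup.mk'_surjective _ y
    obtain ⟨x, rfl⟩ := hfs y'
    exact ⟨QuotientGroup.mk' _ x, rfl⟩
  · rw [hcore]
    intro h
    apply hg'
    rw [← hcm (Cfsg.pCore p X) (hVU.le.trans hUQ)]
    exact h
  · intro h
    rw [Subgroup.map_eq_bot_iff, QuotientGroup.ker_mk'] at h
    exact not_le_of_gt hVU h
  · intro N hN hNU
    have h1 : V ≤ N.comap (QuotientGroup.mk' V) := by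
      have := Subgroup.ker_le_comap (QuotientGroup.mk' V) N
      rwa [QuotientGroup.ker_mk'] at this
    have h2 : N.comap (QuotientGroup.mk' V) ≤ U := by
      rw [← hcm U hVU.le]; exact Subgroup.comap_mono hNU
    have h3 : (N.comap (QuotientGroup.mk' V)).map (QuotientGroup.mk' V) = N :=
      Subgroup.map_comap_eq_self_of_surjective hfs N
    rcases hch _ (hN.comap _) h1 h2 with h4 | h4
    · left
      rw [← h3, h4, Subgroup.map_eq_bot_iff, QuotientGroup.ker_mk']
    · right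
      rw [← h3, h4]
  · rw [← MonoidHom.map_zpowers, iterCommutator_map, Subgroup.map_eq_bot_iff, QuotientGroup.ker_mk']
    exact hI

end Cfsg.Agent.H14
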