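import Mathlib

set_option autoImplicit false

/-! # H14/E41: an `S₃` acting on a 2-group with a fixed-point-free element of order three -/

namespace Cfsg.Agent.H14.E4

open scoped commutatorElement

universe u

variable {V : Type u} [Group V]

theorem cml (hcl : ∀ x y z : V, ⁅x, y⁆ * z = z * ⁅x, y⁆) (x y w : V) : ⁅x * y, w⁆ = ⁅x, w⁆ * ⁅y, w⁆ := by
  have h1 : ⁅x * y, w⁆ = x * ⁅y, w⁆ * (w * x⁻¹ * w⁻¹) := by
    simp only [commutatorElement_def]; group
  rw [h1, ← hcl y w x, mul_assoc, ← hcl x w ⁅y, w⁆ |>.symm]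
  simp only [commutatorElement_def]; group

theorem cmr (hcl : ∀ x y z : V, ⁅x, y⁆ * z = z * ⁅x, y⁆) (x w u : V) : ⁅x, w * u⁆ = ⁅x, w⁆ * ⁅x, u⁆ := by
  have h1 : ⁅x, w * u⁆ = ⁅x, w⁆ * (w * ⁅x, u⁆ * w⁻¹) := by
    simp only [commutatorElement_def]; group
  rw [h1, ← hcl x u w, mul_assoc ⁅x, u⁆, mul_inv_cancel, mul_one]

theorem trace_one [Finite V] (b : V ≃* V) (hb3 : ∀ v, b (b (b v)) = v) (hbf : ∀ v, b v = v → v = 1) (v : V) :
    v * b v * b (b v) = 1 := by
  have hinj : Function.Injective (fun y : V => y⁻¹ * b y) := by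
    intro y z h
    have h' : y⁻¹ * b y = z⁻¹ * b z := h
    have h1 : b (z * y⁻¹) = z * y⁻¹ := by
      rw [map_mul, map_inv]
      have h2 : b y = y * (z⁻¹ * b z) := by rw [← h']; group
      rw [h2]; group
    have h3 := hbf _ h1
    exact (mul_inv_eq_one.1 h3).symm
  obtain ⟨y, rfl⟩ := (Finite.injective_iff_surjective.1 hinj) v
  simp only [map_mul, map_inv, hb3]
  group

structure Act (V : Type u) [Group V] where
  b : V ≃* V
  c : V ≃* V
  b3 : ∀ v, b (b (b v)) = v
  bf : ∀ v, b v = v → v = 1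
  c2 : ∀ v, c (c v) = v
  cb : ∀ v, c (b v) = b (b (c v))
  h4 : ∀ v, (c v * v) ^ 2 = 1
  cl : ∀ x y z : V, ⁅x, y⁆ * z = z * ⁅x, y⁆

theorem of_eq_one {v : V} : Abelianization.of v = 1 ↔ v ∈ commutator V := by
  rw [← MonoidHom.mem_ker, Abelianization.ker_of]

theorem K_map (f : V ≃* V) {z : V} (hz : z ∈ commutator V) : f z ∈ commutator V := by
  have : (commutator V).map f.toMonoidHom ≤ commutator V := by
    rw [commutator_def, Subgroup.map_commutator]
    exact Subgroup.commutator_mono le_top le_top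
  exact this ⟨z, hz, rfl⟩

namespace Act

variable [Finite V] (A : Act V)

include A

theorem tr (v : V) : v * A.b v * A.b (A.b v) = 1 := trace_one A.b A.b3 A.bf v

theorem tr' (v : V) : v * A.b (A.b v) * A.b v = 1 := by
  have h := trace_one (A.b.trans A.b) (fun v => by simp only [MulEquiv.trans_apply, A.b3]) (fun v hv => by
    have hv' : A.b (A.b v) = v := hv
    have h1 : A.b v = v := by
      have := congrArg A.b hv'
      rw [A.b3] at this
      exact this.symm
    exact A.bf v h1) v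
  simpa only [MulEquiv.trans_apply, A.b3] using h

theorem bb (v : V) : A.b (A.b v) = (A.b v)⁻¹ * v⁻¹ := by
  have h := A.tr v
  rw [← mul_inv_rev]
  exact eq_inv_of_mul_eq_one_right h

theorem bb' (v : V) : A.b (A.b v) = v⁻¹ * (A.b v)⁻¹ := by
  have h := A.tr' v
  have h1 : v * A.b (A.b v) = (A.b v)⁻¹ := eq_inv_of_mul_eq_one_left h
  rw [← h1]; group

theorem comm_b (v : V) : v * A.b v = A.b v * v := by
  have h := (A.bb v).symm.trans (A.bb' v)
  have h2 := congrArg (·⁻¹) h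
  simp only [mul_inv_rev, inv_inv] at h2
  exact h2

theorem s0 (v : V) : (A.c v * v) ^ 2 = 1 := A.h4 v

theorem cbb (v : V) : A.c (A.b (A.b v)) = A.b (A.c v) := by
  rw [A.cb, A.cb, A.b3]

theorem s1_eq (v : V) : A.b (A.c (A.b (A.b v)) * A.b (A.b v)) = A.b (A.b (A.c v)) * v := by
  rw [map_mul, A.cbb, A.b3]

theorem s2_eq (v : V) : A.b (A.b (A.c (A.b v) * A.b v)) = A.b (A.c v) * v := by
  rw [map_mul, map_mul, A.cb, A.b3, A.b3]

theorem s1 (v : V) : (A.b (A.b (A.c v)) * v) ^ 2 = 1 := by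
  rw [← A.s1_eq, ← map_pow, A.h4, map_one]

theorem s2 (v : V) : (A.b (A.c v) * v) ^ 2 = 1 := by
  rw [← A.s2_eq, ← map_pow, ← map_pow, A.h4, map_one, map_one]

theorem pi_cube (v : V) : Abelianization.of v ^ 3 =
    Abelianization.of (A.c v * v) * Abelianization.of (A.b (A.c v) * v) *
      Abelianization.of (A.b (A.b (A.c v)) * v) := by
  have h := congrArg (Abelianization.of) (A.tr (A.c v))
  simp only [map_mul, map_one] at h ⊢
  calc Abelianization.of v ^ 3
      = (Abelianization.of (A.c v) * Abelianization.of (A.b (A.c v)) * Abelianization.of (A.b (A.b (A.c v))))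
          * Abelianization.of v ^ 3 := by rw [h, one_mul]
    _ = _ := by
      rw [pow_succ, pow_two]
      simp only [mul_assoc, mul_left_comm, mul_comm]

theorem pi_sq (h2 : IsPGroup 2 V) (v : V) : Abelianization.of v ^ 2 = 1 := by
  have h6 : Abelianization.of v ^ 6 = 1 := by
    have e : Abelianization.of v ^ 6 = (Abelianization.of v ^ 3) ^ 2 := by rw [← pow_mul]
    rw [e, A.pi_cube, mul_pow, mul_pow, ← map_pow, ← map_pow, ← map_pow, A.s0, A.s1, A.s2]
    simp
  obtain ⟨k, hk⟩ := h2 v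
  have hk' : Abelianization.of v ^ (2 ^ k) = 1 := by rw [← map_pow, hk, map_one]
  have hd1 : orderOf (Abelianization.of v) ∣ 6 := orderOf_dvd_of_pow_eq_one h6
  have hd2 : orderOf (Abelianization.of v) ∣ 2 ^ k := orderOf_dvd_of_pow_eq_one hk'
  obtain ⟨j, hj, hjo⟩ := (Nat.dvd_prime_pow Nat.prime_two).1 hd2
  apply orderOf_dvd_iff_pow_eq_one.1
  rw [hjo] at hd1 ⊢
  rcases j with _ | _ | j
  · norm_num
  · norm_num
  · exfalso
    have : 4 ∣ 6 := (Dvd.intro (2 ^ j) (by ring)).trans hd1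
    norm_num at this

theorem sq_mem (h2 : IsPGroup 2 V) (v : V) : v ^ 2 ∈ commutator V := by
  rw [← of_eq_one, map_pow, A.pi_sq h2]

theorem K_central {z : V} (hz : z ∈ commutator V) (x : V) : z * x = x * z := by
  have : commutator V ≤ Subgroup.center V := by
    rw [commutator_eq_closure, Subgroup.closure_le]
    rintro _ ⟨x, y, rfl⟩
    exact Subgroup.mem_center_iff.2 fun g => (A.cl x y g).symm
  exact (Subgroup.mem_center_iff.1 (this hz) x).symm

theorem K_sq (h2 : IsPGroup 2 V) {z : V} (hz : z ∈ commutator V) : z ^ 2 = 1 := by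
  rw [commutator_eq_closure] at hz
  induction hz using Subgroup.closure_induction with
  | mem z hz =>
    obtain ⟨x, y, rfl⟩ := hz
    rw [pow_two, ← cml A.cl, ← pow_two, commutatorElement_eq_one_iff_mul_comm]
    exact A.K_central (A.sq_mem h2 x) y
  | one => simp
  | mul x y hx hy ihx ihy =>
    rw [← commutator_eq_closure] at hx
    rw [(show Commute x y from A.K_central hx y).mul_pow, ihx, ihy, one_mul]
  | inv x hx ih => rw [inv_pow, ih, inv_one]

/-- the preimage of the fixed points of `c` on `V/V'` -/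
def X : Set V := {x | A.c x * x⁻¹ ∈ commutator V}

theorem X_mul {x y : V} (hx : x ∈ A.X) (hy : y ∈ A.X) : x * y ∈ A.X := by
  show A.c (x * y) * (x * y)⁻¹ ∈ commutator V
  have e : A.c (x * y) * (x * y)⁻¹ = (A.c x * x⁻¹) * (A.c y * y⁻¹) := by
    have h := A.K_central hy x⁻¹
    calc A.c (x * y) * (x * y)⁻¹ = A.c x * ((A.c y * y⁻¹) * x⁻¹) := by rw [map_mul]; group
      _ = _ := by rw [h]; group
  rw [e]
  exact mul_mem hx hy

theorem X_sq (h2 : IsPGroup 2 V) {x : V} (hx : x ∈ A.X) : x ^ 2 = 1 := by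
  have hx' : A.c x * x⁻¹ ∈ commutator V := hx
  set z := A.c x * x⁻¹ with hz
  have hcx : A.c x = z * x := by rw [hz]; group
  have h := A.h4 (A.b x)
  have e : A.c (A.b x) * A.b x = A.b (A.b z) * x⁻¹ := by
    rw [A.cb, hcx, map_mul, map_mul, A.bb' x]; group
  rw [e] at h
  have hbz : A.b (A.b z) ∈ commutator V := K_map A.b (K_map A.b hx')
  rw [(show Commute (A.b (A.b z)) x⁻¹ from A.K_central hbz x⁻¹).mul_pow, A.K_sq h2 hbz, one_mul, inv_pow,
    inv_eq_one] at h
  exact h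

theorem X_comm (h2 : IsPGroup 2 V) {x y : V} (hx : x ∈ A.X) (hy : y ∈ A.X) : x * y = y * x := by
  have h1 := A.X_sq h2 hx
  have h3 := A.X_sq h2 hy
  have h4 := A.X_sq h2 (A.X_mul hx hy)
  rw [pow_two] at h1 h3 h4
  have e1 : x⁻¹ = x := inv_eq_of_mul_eq_one_left h1
  have e2 : y⁻¹ = y := inv_eq_of_mul_eq_one_left h3
  have e3 : (x * y)⁻¹ = x * y := inv_eq_of_mul_eq_one_left h4
  rw [mul_inv_rev, e1, e2] at e3
  exact e3.symm

theorem X_comm_b (h2 : IsPGroup 2 V) {x y : V} (hx : x ∈ A.X) (hy : y ∈ A.X) : x * A.b y = A.b y * x := by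
  have hone : ∀ v : V, ⁅v, A.b v⁆ = 1 := fun v => commutatorElement_eq_one_iff_mul_comm.2 (A.comm_b v)
  have hf : ⁅x, A.b y⁆ * ⁅y, A.b x⁆ = 1 := by
    have h := hone (x * y)
    rw [map_mul, cml A.cl, cmr A.cl, cmr A.cl, hone x, hone y, one_mul, mul_one] at h
    exact h
  have hfK : ⁅x, A.b y⁆ ∈ commutator V :=
    Subgroup.commutator_mem_commutator (Subgroup.mem_top _) (Subgroup.mem_top _)
  have hsq := A.K_sq h2 hfK
  have hbf : A.b ⁅x, A.b y⁆ = ⁅x, A.b y⁆ := by
    have e1 : A.b ⁅x, A.b y⁆ = ⁅A.b x, A.b (A.b y)⁆ := map_commutatorElement _ _ _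
    have e2 : ⁅A.b x, A.b y⁆ = 1 := by
      rw [← map_commutatorElement, commutatorElement_eq_one_iff_mul_comm.2 (A.X_comm h2 hx hy), map_one]
    have e3 : ⁅A.b x, (A.b y)⁻¹⁆ = 1 := by
      have h := cmr A.cl (A.b x) (A.b y) (A.b y)⁻¹
      rw [mul_inv_cancel, e2, one_mul, commutatorElement_one_right] at h
      exact h.symm
    have e4 : ⁅A.b x, y⁻¹⁆ = ⁅y, A.b x⁆ := by
      have h := cmr A.cl (A.b x) y y⁻¹
      rw [mul_inv_cancel, commutatorElement_one_right] at h
      rw [← commutatorElement_inv (A.b x) y]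
      exact eq_inv_of_mul_eq_one_right h.symm
    rw [e1, A.bb, cmr A.cl, e3, e4, one_mul]
    rw [pow_two] at hsq
    exact mul_left_cancel (hf.trans hsq.symm)
  exact commutatorElement_eq_one_iff_mul_comm.1 (A.bf _ hbf)

theorem main (h2 : IsPGroup 2 V) : (∀ x y : V, x * y = y * x) ∧ ∀ v : V, v ^ 2 = 1 := by
  have hcX : ∀ w : V, A.c w * w ∈ A.X := by
    intro w
    show A.c (A.c w * w) * (A.c w * w)⁻¹ ∈ commutator V
    have e : A.c (A.c w * w) * (A.c w * w)⁻¹ = ⁅w, A.c w⁆ := by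
      rw [map_mul, A.c2, commutatorElement_def]; group
    rw [e]
    exact Subgroup.commutator_mem_commutator (Subgroup.mem_top _) (Subgroup.mem_top _)
  -- decomposition
  have hdec : ∀ v : V, ∃ x ∈ A.X, ∃ y ∈ A.X, ∃ w ∈ A.X, ∃ k ∈ commutator V, v = x * A.b (A.b y) * A.b w * k := by
    intro v
    refine ⟨A.c v * v, hcX v, A.c (A.b v) * A.b v, hcX _, A.c (A.b (A.b v)) * A.b (A.b v), hcX _,
      ((A.c v * v) * A.b (A.b (A.c (A.b v) * A.b v)) * A.b (A.c (A.b (A.b v)) * A.b (A.b v)))⁻¹ * v, ?_, by group⟩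
    rw [← of_eq_one, map_mul, map_inv, map_mul, map_mul, A.s1_eq, A.s2_eq, ← A.pi_cube]
    rw [inv_mul_eq_one]
    have h := A.pi_sq h2 v
    rw [pow_succ, h, one_mul]
  have hXc : ∀ x ∈ A.X, ∀ v : V, x * v = v * x := by
    intro x hx v
    obtain ⟨x1, hx1, y, hy, w, hw, k, hk, rfl⟩ := hdec v
    have c1 : Commute x x1 := A.X_comm h2 hx hx1
    have c2 : Commute x (A.b (A.b y)) := by
      rw [A.bb]
      exact (Commute.inv_right (A.X_comm_b h2 hx hy : Commute x (A.b y))).mul_right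
        (Commute.inv_right (A.X_comm h2 hx hy : Commute x y))
    have c3 : Commute x (A.b w) := A.X_comm_b h2 hx hw
    have c4 : Commute x k := (A.K_central hk x).symm
    exact ((c1.mul_right c2).mul_right c3).mul_right c4
  have hbc : ∀ (x : V), (∀ v : V, x * v = v * x) → ∀ v : V, A.b x * v = v * A.b x := by
    intro x hx v
    obtain ⟨w, rfl⟩ := A.b.surjective v
    rw [← map_mul, hx, map_mul]
  have hall : ∀ x y : V, x * y = y * x := by
    intro v u
    obtain ⟨x, hx, y, hy, w, hw, k, hk, rfl⟩ := hdec v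
    have c1 : Commute x u := hXc x hx u
    have c2 : Commute (A.b (A.b y)) u := hbc _ (hbc _ (hXc y hy)) u
    have c3 : Commute (A.b w) u := hbc _ (hXc w hw) u
    have c4 : Commute k u := A.K_central hk u
    exact ((c1.mul_left c2).mul_left c3).mul_left c4
  refine ⟨hall, fun v => ?_⟩
  have hK : commutator V ≤ ⊥ := by
    rw [commutator_eq_closure, Subgroup.closure_le]
    rintro _ ⟨x, y, rfl⟩
    exact commutatorElement_eq_one_iff_mul_comm.2 (hall x y)
  exact Subgroup.mem_bot.1 (hK (A.sq_mem h2 v))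

end Act

end Cfsg.Agent.H14.E4
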