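import Mathlib
import Cfsg.Agent.H14.E41
import Cfsg.Agent.H1.Chief
import Cfsg.Agent.H1.Cores
import Cfsg.Agent.H1.BG36M
import Cfsg.Agent.H3.BurnsidePQ
import Cfsg.Agent.H11.EqOrd
import Cfsg.Agent.H23.RankOne
import Cfsg.Agent.H24.ClassTwo
import Cfsg.Agent.H19.OddCores
import Cfsg.Agent.S3779

set_option autoImplicit false

/-! # H14/E42: groups with spectrum {1,2,3,4} -/

namespace Cfsg.Agent.H14.E4

open Cfsg
open scoped commutatorElement

universe u

structure Hyp (G : Type u) [Group G] : Prop where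
  ord : ∀ g : G, orderOf g = 1 ∨ orderOf g = 2 ∨ orderOf g = 3 ∨ orderOf g = 4
  three : ∃ x : G, orderOf x = 3
  four : ∃ x : G, orderOf x = 4

theorem s3_of_six {X : Type*} [Group X] [Finite X] (h6 : Nat.card X = 6) (hna : ∃ x y : X, x * y ≠ y * x) :
    Nonempty (X ≃* Equiv.Perm (Fin 3)) := by
  classical
  haveI : Fact (Nat.Prime 2) := ⟨Nat.prime_two⟩
  haveI : Fact (Nat.Prime 3) := ⟨Nat.prime_three⟩
  obtain ⟨t, ht⟩ := exists_prime_orderOf_dvd_card' (G := X) 2 (by rw [h6]; norm_num)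
  set T := Subgroup.zpowers t with hT
  have hTc : Nat.card T = 2 := by rw [hT, Nat.card_zpowers, ht]
  have hTi : T.index = 3 := by
    have := Subgroup.card_mul_index T
    rw [hTc, h6] at this
    omega
  have hnc : ¬ ∀ x, t * x = x * t := by
    intro hc
    have htz : t ∈ Subgroup.center X := Subgroup.mem_center_iff.2 fun g => (hc g).symm
    have h2 : 2 ∣ Nat.card (Subgroup.center X) := by
      rw [← ht, ← Subgroup.orderOf_mk t htz]
      exact orderOf_dvd_natCard _
    have h3 := Subgroup.card_mul_index (Subgroup.center X)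
    rw [h6] at h3
    have h4 : (Subgroup.center X).index ∣ 3 := by
      obtain ⟨k, hk⟩ := h2
      rw [hk] at h3
      have : k * (Subgroup.center X).index = 3 := by
        have h5 : 2 * (k * (Subgroup.center X).index) = 2 * 3 := by rw [← mul_assoc]; omega
        omega
      exact Dvd.intro_left _ this
    obtain ⟨x, y, hxy⟩ := hna
    rcases (Nat.dvd_prime Nat.prime_three).1 h4 with h5 | h5
    · rw [Subgroup.index_eq_one] at h5
      have : y ∈ Subgroup.center X := by rw [h5]; trivial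
      exact hxy (Subgroup.mem_center_iff.1 this x)
    · haveI : IsCyclic (X ⧸ Subgroup.center X) := isCyclic_of_prime_card (p := 3) h5
      have h6 := MonoidHom.isMulCommutative_of_isCyclic_of_ker_le_center (QuotientGroup.mk' (Subgroup.center X)) (by simp)
      exact hxy (h6.is_comm.comm x y)
  let f : X →* Equiv.Perm (X ⧸ T) := MulAction.toPermHom X (X ⧸ T)
  have hker : f.ker = ⊥ := by
    have h1 : f.ker = T.normalCore := (Subgroup.normalCore_eq_ker T).symm
    rw [h1, Subgroup.eq_bot_iff_forall]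
    intro k hk
    have hkT : k ∈ T := Subgroup.normalCore_le T hk
    by_contra hk1
    -- then T is normal
    have hle : T ≤ T.normalCore := by
      have h2 : Nat.card T.normalCore ≠ 1 := by
        intro h3
        rw [Subgroup.card_eq_one] at h3
        rw [h3] at hk
        exact hk1 (Subgroup.mem_bot.1 hk)
      have h3 : Nat.card T.normalCore ∣ 2 := by rw [← hTc]; exact Subgroup.card_dvd_of_le (Subgroup.normalCore_le T)
      have h4 : Nat.card T.normalCore = 2 := ((Nat.dvd_prime Nat.prime_two).1 h3).resolve_left h2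
      have h5 := Subgroup.eq_of_le_of_card_ge (Subgroup.normalCore_le T) (by rw [hTc, h4])
      rw [h5]
    apply hnc
    intro x
    have h3 : x * t * x⁻¹ ∈ T := Subgroup.normalCore_le T
      ((inferInstance : T.normalCore.Normal).conj_mem t (hle (Subgroup.mem_zpowers t)) x)
    obtain ⟨n, hn⟩ := h3
    have hn' : t ^ n = x * t * x⁻¹ := hn
    have ht2 : t ^ 2 = 1 := by rw [← ht]; exact pow_orderOf_eq_one t
    have ht1 : t ≠ 1 := by
      rintro rfl
      rw [orderOf_one] at ht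
      omega
    rcases Int.even_or_odd n with ⟨m, hm⟩ | ⟨m, hm⟩
    · exfalso
      have h4 : t ^ n = 1 := by rw [hm, ← two_mul, zpow_mul, zpow_two, ← pow_two, ht2, one_zpow]
      rw [h4] at hn'
      apply ht1
      have h5 : x * t = x := by
        have := congrArg (· * x) hn'
        simpa using this.symm
      exact mul_eq_left.1 h5
    · have h4 : t ^ n = t := by rw [hm, zpow_add, zpow_mul, zpow_two, ← pow_two, ht2, one_zpow, one_mul, zpow_one]
      rw [h4] at hn'
      have := congrArg (· * x) hn'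
      simpa using this
  have hinj : Function.Injective f := (MonoidHom.ker_eq_bot_iff f).1 hker
  have hc3 : Nat.card (X ⧸ T) = 3 := hTi
  haveI : Fintype (X ⧸ T) := Fintype.ofFinite _
  have e : (X ⧸ T) ≃ Fin 3 := Fintype.equivFinOfCardEq (by rw [← Nat.card_eq_fintype_card]; exact hc3)
  have hcp : Nat.card (Equiv.Perm (X ⧸ T)) = Nat.card X := by
    rw [h6, Nat.card_congr (Equiv.permCongr e), Nat.card_eq_fintype_card, Fintype.card_perm, Fintype.card_fin]
    rfl
  have hbij : Function.Bijective f := by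
    rw [Nat.bijective_iff_injective_and_card]
    exact ⟨hinj, hcp.symm⟩
  exact ⟨(MulEquiv.ofBijective f hbij).trans (Equiv.permCongrHom e)⟩

namespace Hyp

variable {G : Type u} [Group G] (h : Hyp G)

include h

theorem pw (g : G) : g ^ 4 = 1 ∨ g ^ 3 = 1 := by
  rcases h.ord g with h1 | h1 | h1 | h1
  · left; exact orderOf_dvd_iff_pow_eq_one.1 (by rw [h1]; norm_num)
  · left; exact orderOf_dvd_iff_pow_eq_one.1 (by rw [h1]; norm_num)
  · right; exact orderOf_dvd_iff_pow_eq_one.1 (by rw [h1])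
  · left; exact orderOf_dvd_iff_pow_eq_one.1 (by rw [h1])

theorem no6 {a b : G} (hab : a * b = b * a) (ha : a ^ 4 = 1) (hb : b ^ 3 = 1) : a = 1 ∨ b = 1 := by
  by_contra hcon
  push Not at hcon
  obtain ⟨ha1, hb1⟩ := hcon
  have hoa : orderOf a ∣ 4 := orderOf_dvd_of_pow_eq_one ha
  have hob : orderOf b ∣ 3 := orderOf_dvd_of_pow_eq_one hb
  have hcop : (orderOf a).Coprime (orderOf b) := Nat.Coprime.of_dvd hoa hob (by norm_num)
  have h1 : orderOf (a * b) = orderOf a * orderOf b := (show Commute a b from hab).orderOf_mul_eq_mul_orderOf_of_coprime hcop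
  have ha2 : orderOf a ≠ 1 := fun h2 => ha1 (orderOf_eq_one_iff.1 h2)
  have hb2 : orderOf b ≠ 1 := fun h2 => hb1 (orderOf_eq_one_iff.1 h2)
  have hb3 : orderOf b = 3 := ((Nat.dvd_prime Nat.prime_three).1 hob).resolve_left hb2
  have ha0 : orderOf a ≠ 0 := fun h0 => by rw [h0] at hoa; norm_num at hoa
  have h2 := h.ord (a * b)
  rw [h1, hb3] at h2
  omega

theorem primes [Finite G] {r : ℕ} (hr : r.Prime) (hd : r ∣ Nat.card G) : r = 2 ∨ r = 3 := by
  haveI := Fact.mk hr
  obtain ⟨x, hx⟩ := exists_prime_orderOf_dvd_card' (G := G) r hd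
  have h1 := h.ord x
  rw [hx] at h1
  rcases h1 with h1 | h1 | h1 | h1
  · rw [h1] at hr; norm_num at hr
  · exact Or.inl h1
  · exact Or.inr h1
  · rw [h1] at hr; norm_num at hr

theorem solv [Finite G] : Group.IsSolvable G :=
  H3.burnside_paqb 2 3 Nat.prime_two Nat.prime_three _ G rfl fun _ hr hd => h.primes hr hd

theorem p2 {g : G} (hg : ∃ k : ℕ, g ^ 2 ^ k = 1) : g ^ 4 = 1 := by
  rcases h.pw g with h1 | h1
  · exact h1
  · obtain ⟨k, hk⟩ := hg
    have h2 : orderOf g ∣ 3 := orderOf_dvd_of_pow_eq_one h1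
    have h3 : orderOf g ∣ 2 ^ k := orderOf_dvd_of_pow_eq_one hk
    have h4 : orderOf g = 1 := Nat.Coprime.eq_one_of_dvd (Nat.Coprime.of_dvd_right h3 (Nat.Coprime.of_dvd_left h2
      (Nat.Coprime.pow_right k (by norm_num)))) dvd_rfl
    rw [orderOf_eq_one_iff.1 h4, one_pow]

theorem p3 {g : G} (hg : ∃ k : ℕ, g ^ 3 ^ k = 1) : g ^ 3 = 1 := by
  rcases h.pw g with h1 | h1
  · obtain ⟨k, hk⟩ := hg
    have h2 : orderOf g ∣ 4 := orderOf_dvd_of_pow_eq_one h1
    have h3 : orderOf g ∣ 3 ^ k := orderOf_dvd_of_pow_eq_one hk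
    have h4 : orderOf g = 1 := Nat.Coprime.eq_one_of_dvd (Nat.Coprime.of_dvd_right h3 (Nat.Coprime.of_dvd_left h2
      (Nat.Coprime.pow_right k (by norm_num)))) dvd_rfl
    rw [orderOf_eq_one_iff.1 h4, one_pow]
  · exact h1

end Hyp

/-- Case I: a normal 3-subgroup containing its centralizer. -/
theorem caseI {G : Type u} [Group G] [Finite G] (h : Hyp G) (V : Subgroup G) [hVn : V.Normal] (hV : IsPGroup 3 V)
    (hC : Subgroup.centralizer (V : Set G) ≤ V) :
    Cfsg.IsElementaryAbelian 3 V ∧ ((IsCyclic (G ⧸ V) ∧ V.index = 4) ∨ Nonempty (G ⧸ V ≃* QuaternionGroup 2)) := by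
  haveI : Fact (Nat.Prime 2) := ⟨Nat.prime_two⟩
  haveI : Fact (Nat.Prime 3) := ⟨Nat.prime_three⟩
  have hV3 : ∀ v ∈ V, v ^ 3 = 1 := by
    intro v hv
    obtain ⟨k, hk⟩ := hV ⟨v, hv⟩
    exact h.p3 ⟨k, congrArg Subtype.val hk⟩
  obtain ⟨x4, hx4⟩ := h.four
  have hx44 : x4 ^ 4 = 1 := by rw [← hx4]; exact pow_orderOf_eq_one x4
  have hx42 : x4 ^ 2 ≠ 1 := by
    intro h1
    have := orderOf_dvd_of_pow_eq_one h1
    rw [hx4] at this
    norm_num at this
  -- involutions invert V
  have hinv : ∀ i : G, i ^ 2 = 1 → i ≠ 1 → ∀ v ∈ V, i * v * i⁻¹ = v⁻¹ := by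
    intro i hi2 hi1
    apply H19.inv_of_fpf' (by rw [← pow_two]; exact hi2)
    · intro k hk; exact hVn.conj_mem k hk i
    · intro k hk hik
      refine (h.no6 hik ?_ (hV3 k hk)).resolve_left hi1
      rw [show 4 = 2 * 2 by norm_num, pow_mul, hi2, one_pow]
  set i := x4 ^ 2 with hi
  have hi2 : i ^ 2 = 1 := by rw [hi, ← pow_mul]; exact hx44
  have hVc : ∀ a ∈ V, ∀ b ∈ V, a * b = b * a := by
    intro a ha b hb
    have h1 := hinv i hi2 hx42 a ha
    have h2 := hinv i hi2 hx42 b hb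
    have h3 := hinv i hi2 hx42 (a * b) (mul_mem ha hb)
    have h4 : a⁻¹ * b⁻¹ = (a * b)⁻¹ := by rw [← h1, ← h2, ← h3]; group
    have h5 := congrArg (·⁻¹) h4
    simp only [mul_inv_rev, inv_inv] at h5
    exact h5.symm
  -- all elements of order three lie in V
  have h3V : ∀ x : G, x ^ 3 = 1 → x ∈ V := by
    intro x hx
    set v := i * x * i⁻¹ * x⁻¹ with hv
    have hvV : v ∈ V := by
      apply hC
      rw [Subgroup.mem_centralizer_iff]
      intro k hk
      have hk1 : x⁻¹ * k * x ∈ V := by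
        have := hVn.conj_mem k hk x⁻¹
        rwa [inv_inv] at this
      have hk2 : i⁻¹ * (x⁻¹ * k * x) * i = (x⁻¹ * k * x)⁻¹ := by
        have h1 := hinv i hi2 hx42 _ (inv_mem hk1)
        rw [inv_inv] at h1
        generalize x⁻¹ * k * x = m at h1 ⊢
        calc i⁻¹ * m * i = i⁻¹ * (i * m⁻¹ * i⁻¹) * i := by rw [h1]
          _ = m⁻¹ := by group
      have hk3 : i * (x * (x⁻¹ * k * x)⁻¹ * x⁻¹) * i⁻¹ = k := by
        have h1 := hinv i hi2 hx42 k⁻¹ (inv_mem hk)
        rw [inv_inv] at h1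
        have e : x * (x⁻¹ * k * x)⁻¹ * x⁻¹ = k⁻¹ := by group
        rw [e]; exact h1
      have hk4 : v * k * v⁻¹ = k := by
        calc v * k * v⁻¹ = i * (x * (i⁻¹ * (x⁻¹ * k * x) * i) * x⁻¹) * i⁻¹ := by rw [hv]; group
          _ = k := by rw [hk2, hk3]
      rw [mul_inv_eq_iff_eq_mul] at hk4
      exact hk4.symm
    have hivx : i * x * i⁻¹ = v * x := by rw [hv]; group
    set w := (x⁻¹ * v * x)⁻¹ with hw
    have hwV : w ∈ V := by
      apply inv_mem
      have := hVn.conj_mem v hvV x⁻¹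
      rwa [inv_inv] at this
    have hiw := hinv i hi2 hx42 w hwV
    have hw3 := hV3 w hwV
    have hcom : i * (x * w) = (x * w) * i := by
      have h1 : i * (x * w) * i⁻¹ = x * w := by
        calc i * (x * w) * i⁻¹ = (i * x * i⁻¹) * (i * w * i⁻¹) := by group
          _ = v * x * w⁻¹ := by rw [hivx, hiw]
          _ = x * (x⁻¹ * v * x) * w⁻¹ := by group
          _ = x * (w⁻¹ * w⁻¹) := by rw [hw]; group
          _ = x * w := by
            congr 1
            have : w * w * w = 1 := by rw [← pow_two, ← pow_succ]; exact hw3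
            have h5 : w * w = w⁻¹ := eq_inv_of_mul_eq_one_left this
            have h6 : w⁻¹ * w⁻¹ = (w * w)⁻¹ := by group
            rw [h6, h5, inv_inv]
      rw [mul_inv_eq_iff_eq_mul] at h1
      exact h1
    have hi4 : i ^ 4 = 1 := by rw [show 4 = 2 * 2 by norm_num, pow_mul, hi2, one_pow]
    have hmk : (QuotientGroup.mk (x * w) : G ⧸ V) = QuotientGroup.mk x := by
      rw [QuotientGroup.eq]
      have : (x * w)⁻¹ * x = w⁻¹ := by group
      rw [this]; exact inv_mem hwV
    have hx3 : (QuotientGroup.mk x : G ⧸ V) ^ 3 = 1 := by rw [← QuotientGroup.mk_pow, hx]; rfl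
    rcases h.pw (x * w) with h1 | h1
    · have h2 : (QuotientGroup.mk x : G ⧸ V) ^ 4 = 1 := by rw [← hmk, ← QuotientGroup.mk_pow, h1]; rfl
      have h3 : (QuotientGroup.mk x : G ⧸ V) = 1 := by
        rw [pow_succ, hx3, one_mul] at h2; exact h2
      exact (QuotientGroup.eq_one_iff x).1 h3
    · have h2 := (h.no6 hcom hi4 h1).resolve_left hx42
      have h3 : x = w⁻¹ := eq_inv_of_mul_eq_one_left h2
      rw [h3]; exact inv_mem hwV
  have hq4 : ∀ y : G ⧸ V, y ^ 4 = 1 := by
    intro y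
    obtain ⟨g, rfl⟩ := QuotientGroup.mk_surjective y
    rcases h.pw g with h1 | h1
    · rw [← QuotientGroup.mk_pow, h1]; rfl
    · rw [(QuotientGroup.eq_one_iff g).2 (h3V g h1), one_pow]
  have hq2 : IsPGroup 2 (G ⧸ V) := fun y => ⟨2, hq4 y⟩
  -- elements of V of order dividing 4 are trivial
  have hV4 : ∀ v ∈ V, v ^ 4 = 1 → v = 1 := by
    intro v hv h4
    have h3 := hV3 v hv
    rw [pow_succ, h3, one_mul] at h4
    exact h4
  have hinvq : ∀ y : G ⧸ V, orderOf y = 2 → ∃ g : G, QuotientGroup.mk g = y ∧ g ^ 2 = 1 ∧ g ≠ 1 := by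
    intro y hy
    obtain ⟨g, rfl⟩ := QuotientGroup.mk_surjective y
    have hg2 : g ^ 2 ∈ V := by
      rw [← QuotientGroup.eq_one_iff, QuotientGroup.mk_pow, ← hy]
      exact pow_orderOf_eq_one _
    have hgV : g ∉ V := by
      intro hg
      rw [(QuotientGroup.eq_one_iff g).2 hg, orderOf_one] at hy
      omega
    have hg4 : g ^ 4 = 1 := by
      rcases h.pw g with h1 | h1
      · exact h1
      · exact absurd (h3V g h1) hgV
    refine ⟨g, rfl, hV4 _ hg2 ?_, fun hg => hgV (by rw [hg]; exact one_mem V)⟩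
    rw [← pow_mul, show 2 * 4 = 4 * 2 by norm_num, pow_mul, hg4, one_pow]
  have huniq : ∀ x y : G ⧸ V, orderOf x = 2 → orderOf y = 2 → y ∈ Subgroup.zpowers x := by
    intro x y hx hy
    obtain ⟨g, rfl, hg2, hg1⟩ := hinvq x hx
    obtain ⟨k, rfl, hk2, hk1⟩ := hinvq y hy
    have h1 : g⁻¹ * k ∈ V := by
      apply hC
      rw [Subgroup.mem_centralizer_iff]
      intro v hv
      have e1 := hinv k hk2 hk1 v hv
      have e2 := hinv g hg2 hg1 v hv
      have e3 : (g⁻¹ * k) * v * (g⁻¹ * k)⁻¹ = v := by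
        calc (g⁻¹ * k) * v * (g⁻¹ * k)⁻¹ = g⁻¹ * (k * v * k⁻¹) * g := by group
          _ = g⁻¹ * (g * v * g⁻¹) * g := by rw [e1, e2]
          _ = v := by group
      rw [mul_inv_eq_iff_eq_mul] at e3
      exact e3.symm
    have h2 : (QuotientGroup.mk g : G ⧸ V) = QuotientGroup.mk k := QuotientGroup.eq.2 h1
    rw [h2]
    exact Subgroup.mem_zpowers _
  refine ⟨⟨⟨⟨fun a b => Subtype.ext (hVc a a.2 b b.2)⟩⟩, hV3⟩, ?_⟩
  -- image of x4 has order four
  have hx4q : orderOf (QuotientGroup.mk x4 : G ⧸ V) = 4 := by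
    have h1 : orderOf (QuotientGroup.mk x4 : G ⧸ V) ∣ 2 ^ 2 := orderOf_dvd_of_pow_eq_one (hq4 _)
    obtain ⟨j, hj, hjo⟩ := (Nat.dvd_prime_pow Nat.prime_two).1 h1
    have h2 : ¬ (QuotientGroup.mk x4 : G ⧸ V) ^ 2 = 1 := by
      intro h3
      rw [← QuotientGroup.mk_pow] at h3
      have h4 := (QuotientGroup.eq_one_iff _).1 h3
      exact hx42 (hV4 _ h4 (by rw [← pow_mul, show 2 * 4 = 4 * 2 by norm_num, pow_mul, hx44, one_pow]))
    have h3 : ¬ j ≤ 1 := by
      intro h4
      apply h2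
      apply orderOf_dvd_iff_pow_eq_one.1
      rw [hjo]
      exact (pow_dvd_pow 2 h4).trans (by norm_num)
    have h4 : j = 2 := by omega
    rw [hjo, h4]
    norm_num
  rcases H23.cyclic_or_quaternion hq2 huniq with hcyc | ⟨-, n, hn, ⟨e⟩⟩
  · left
    refine ⟨hcyc, ?_⟩
    obtain ⟨y, hy⟩ := hcyc.exists_generator
    have h1 : V.index = orderOf y := by
      have h2 : Subgroup.zpowers y = ⊤ := by
        rw [eq_top_iff]; intro z _; exact hy z
      rw [← Nat.card_zpowers, h2, Subgroup.card_top]; rfl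
    have h2 : orderOf y ∣ 4 := orderOf_dvd_of_pow_eq_one (hq4 y)
    have h3 : 4 ∣ V.index := by
      rw [← hx4q]
      exact orderOf_dvd_natCard _
    rw [h1] at h3 ⊢
    exact Nat.dvd_antisymm h2 h3
  · right
    have h1 : (QuaternionGroup.a 1 : QuaternionGroup (2 ^ n)) ^ 4 = 1 := by
      have h2 := hq4 (e.symm (QuaternionGroup.a 1))
      rw [← map_pow, MulEquiv.map_eq_one_iff] at h2
      exact h2
    haveI : NeZero (2 ^ n) := ⟨by positivity⟩
    have h2 : orderOf (QuaternionGroup.a 1 : QuaternionGroup (2 ^ n)) = 2 * 2 ^ n := QuaternionGroup.orderOf_a_one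
    have h3 : 2 * 2 ^ n ∣ 4 := by rw [← h2]; exact orderOf_dvd_of_pow_eq_one h1
    have h4 : n = 1 := by
      rcases Nat.lt_or_ge n 2 with h5 | h5
      · omega
      · exfalso
        have h6 : 2 * 2 ^ 2 ≤ 2 * 2 ^ n := Nat.mul_le_mul_left _ (Nat.pow_le_pow_right (by norm_num) h5)
        have h7 := Nat.le_of_dvd (by norm_num) h3
        omega
    subst h4
    exact ⟨e⟩

end Cfsg.Agent.H14.E4
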