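import Mathlib
import Cfsg.Agent.H14.E42

set_option autoImplicit false

/-! # H14/E43: groups with spectrum {1,2,3,4}, the case of a normal 2-subgroup -/

namespace Cfsg.Agent.H14.E4

open Cfsg
open scoped commutatorElement

universe u

theorem conj_cases {X : Type*} [Group X] {W : Subgroup X} [hW : W.Normal] {w : X} (hw1 : w ≠ 1) (hw3 : w ^ 3 = 1)
    (hWz : W = Subgroup.zpowers w) (g : X) : g * w * g⁻¹ = w ∨ g * w * g⁻¹ = w⁻¹ := by
  have h1 : g * w * g⁻¹ ∈ Subgroup.zpowers w := by
    rw [← hWz]; exact hW.conj_mem w (by rw [hWz]; exact Subgroup.mem_zpowers w) g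
  obtain ⟨n, hn⟩ := h1
  have hn' : w ^ n = g * w * g⁻¹ := hn
  have hz3 : w ^ (3 : ℤ) = 1 := by exact_mod_cast hw3
  have h2 : n = 3 * (n / 3) + n % 3 := by omega
  have h3 : w ^ n = w ^ (n % 3) := by
    conv_lhs => rw [h2]
    rw [zpow_add, zpow_mul, hz3, one_zpow, one_mul]
  have h4 : n % 3 = 0 ∨ n % 3 = 1 ∨ n % 3 = 2 := by omega
  rw [h3] at hn'
  rcases h4 with h4 | h4 | h4
  · exfalso
    rw [h4, zpow_zero] at hn'
    apply hw1
    have h5 : g * w = g := by
      have := congrArg (· * g) hn'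
      simpa using this.symm
    exact mul_eq_left.1 h5
  · left; rw [← hn', h4, zpow_one]
  · right
    rw [← hn', h4]
    have : w * w * w = 1 := by rw [← pow_two, ← pow_succ]; exact hw3
    rw [zpow_two]
    exact eq_inv_of_mul_eq_one_left this

theorem caseII {G : Type u} [Group G] [Finite G] (h : Hyp G) (V : Subgroup G) [hVn : V.Normal] (hV : IsPGroup 2 V)
    (hC : Subgroup.centralizer (V : Set G) ≤ V) (hO : pCore 2 (G ⧸ V) = ⊥) :
    (IsPGroup 2 ↥V ∧ Monoid.exponent ↥V = 4 ∧ Group.nilpotencyClass ↥V ≤ 2 ∧ V.index = 3) ∨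
      (Cfsg.IsElementaryAbelian 2 V ∧ Nonempty (G ⧸ V ≃* Equiv.Perm (Fin 3))) := by
  haveI : Fact (Nat.Prime 2) := ⟨Nat.prime_two⟩
  haveI : Fact (Nat.Prime 3) := ⟨Nat.prime_three⟩
  have hs := h.solv
  obtain ⟨x3, hx3⟩ := h.three
  have hx33 : x3 ^ 3 = 1 := by rw [← hx3]; exact pow_orderOf_eq_one x3
  have hx31 : x3 ≠ 1 := by
    rintro rfl; rw [orderOf_one] at hx3; omega
  have hV4 : ∀ v ∈ V, v ^ 4 = 1 := by
    intro v hv
    obtain ⟨k, hk⟩ := hV ⟨v, hv⟩
    exact h.p2 ⟨k, congrArg Subtype.val hk⟩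
  have hV3 : ∀ v ∈ V, v ^ 3 = 1 → v = 1 := by
    intro v hv h3
    have h4 := hV4 v hv
    rw [pow_succ, h3, one_mul] at h4
    exact h4
  have hVne : V ≠ ⊥ := by
    rintro rfl
    have h1 : x3 ∈ (⊥ : Subgroup G) := by
      apply hC
      rw [Subgroup.mem_centralizer_iff]
      intro k hk
      rw [Subgroup.mem_bot.1 hk]; simp
    exact hx31 (Subgroup.mem_bot.1 h1)
  have hfpf : ∀ x : G, x ^ 3 = 1 → x ≠ 1 → ∀ v ∈ V, x * v = v * x → v = 1 := by
    intro x hx hx1 v hv hxv
    exact (h.no6 hxv.symm (hV4 v hv) hx).resolve_right hx1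
  -- Sylow 3-subgroup of order 3
  have h3V : ¬ 3 ∣ Nat.card V := by
    intro hd
    obtain ⟨v, hv⟩ := exists_prime_orderOf_dvd_card' (G := V) 3 hd
    have h1 : (v : G) ^ 3 = 1 := by
      have := pow_orderOf_eq_one v
      rw [hv] at this
      exact congrArg Subtype.val this
    have h2 := hV3 v v.2 h1
    have h3 : v = 1 := Subtype.ext h2
    rw [h3, orderOf_one] at hv
    omega
  let P : Sylow 3 G := default
  have hP3 : ∀ x : (P : Subgroup G), x ^ 3 = 1 := by
    intro x
    obtain ⟨k, hk⟩ := P.2 x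
    exact Subtype.ext (h.p3 ⟨k, congrArg Subtype.val hk⟩)
  have hPcyc : IsCyclic (P : Subgroup G) := by
    rcases H11.EqOrd.fpf_pgroup hVne h3V P.2 (P : Subgroup G).subtype Subtype.val_injective
      (fun x => by rw [Subgroup.normalizer_eq_top]; trivial) (fun x hx => by
        rw [Subgroup.eq_bot_iff_forall]
        rintro v ⟨hv1, hv2⟩
        have hv2' : v ∈ Subgroup.centralizer ({((P : Subgroup G).subtype x)} : Set G) := hv2
        have hv3 : v * x = x * v := by
          rw [Subgroup.mem_centralizer_singleton_iff] at hv2'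
          exact hv2'
        exact hfpf x (congrArg Subtype.val (hP3 x)) (fun h1 => hx (Subtype.ext h1)) v hv1 hv3.symm) with h1 | ⟨h1, -⟩
    · exact h1
    · omega
  have hPc : Nat.card (P : Subgroup G) ∣ 3 := by
    obtain ⟨y, hy⟩ := hPcyc.exists_generator
    have h2 : Subgroup.zpowers y = ⊤ := by
      rw [eq_top_iff]; intro z _; exact hy z
    have h1 : Nat.card (P : Subgroup G) = orderOf y := by
      rw [← Nat.card_zpowers, h2, Subgroup.card_top]
    rw [h1]
    exact orderOf_dvd_of_pow_eq_one (hP3 y)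
  -- the quotient
  set W := pPrimeCore 2 (G ⧸ V) with hW
  haveI hWn : W.Normal := H1.pPrimeCore_normal 2 _
  haveI : Group.IsSolvable G := hs
  have hsq : Group.IsSolvable (G ⧸ V) := inferInstance
  have hCW : Subgroup.centralizer (W : Set (G ⧸ V)) ≤ W := H1.centralizer_pPrimeCore_le hsq hO
  have hWcop : (Nat.card W).Coprime 2 := H1.pPrimeCore_coprime 2 _
  have hWd : Nat.card W ∣ 3 := by
    have h1 : Nat.card W ∣ Nat.card G :=
      (Subgroup.card_subgroup_dvd_card W).trans (Subgroup.card_quotient_dvd_card V)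
    have h2 : Nat.card (P : Subgroup G) * (P : Subgroup G).index = Nat.card G := Subgroup.card_mul_index _
    have h3 : (Nat.card W).Coprime (P : Subgroup G).index := by
      apply Nat.Coprime.symm
      apply Nat.coprime_of_dvd
      intro k hk hk1 hk2
      have h4 : k ∣ Nat.card G := hk1.trans (Dvd.intro_left _ h2)
      rcases h.primes hk h4 with h5 | h5
      · rw [h5] at hk2
        exact absurd (Nat.Coprime.eq_one_of_dvd (Nat.Coprime.symm hWcop) hk2) (by norm_num)
      · rw [h5] at hk1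
        exact P.not_dvd_index hk1
    rw [← h2] at h1
    exact (h3.dvd_of_dvd_mul_right h1).trans hPc
  have hWne : W ≠ ⊥ := by
    intro hb
    have h1 : (QuotientGroup.mk x3 : G ⧸ V) ∈ (⊥ : Subgroup (G ⧸ V)) := by
      rw [← hb]
      apply hCW
      rw [Subgroup.mem_centralizer_iff]
      intro k hk
      rw [hb] at hk
      rw [Subgroup.mem_bot.1 hk]; simp
    have h2 := (QuotientGroup.eq_one_iff x3).1 (Subgroup.mem_bot.1 h1)
    exact hx31 (hV3 x3 h2 hx33)
  have hWc : Nat.card W = 3 := by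
    rcases (Nat.dvd_prime Nat.prime_three).1 hWd with h1 | h1
    · exact absurd (Subgroup.card_eq_one.1 h1) hWne
    · exact h1
  obtain ⟨⟨w, hwW⟩, hw⟩ := exists_prime_orderOf_dvd_card' (G := W) 3 (by rw [hWc])
  have hw' : orderOf w = 3 := by rw [← Subgroup.orderOf_mk w hwW]; exact hw
  have hw3 : w ^ 3 = 1 := by rw [← hw']; exact pow_orderOf_eq_one w
  have hw1 : w ≠ 1 := by
    rintro rfl; rw [orderOf_one] at hw'; omega
  have hWz : W = Subgroup.zpowers w := by
    symm
    apply Subgroup.eq_of_le_of_card_ge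
    · rw [Subgroup.zpowers_le]; exact hwW
    · rw [hWc, Nat.card_zpowers, hw']
  have hconj := conj_cases hw1 hw3 hWz
  have hCw : ∀ g : G ⧸ V, g * w * g⁻¹ = w → g ∈ W := by
    intro g hg
    apply hCW
    rw [hWz, Subgroup.mem_centralizer_iff]
    rintro _ ⟨n, rfl⟩
    have : Commute g w := mul_inv_eq_iff_eq_mul.1 hg
    exact (this.zpow_right n).eq.symm
  have hbmem : ∀ b : G, b ^ 3 = 1 → (QuotientGroup.mk b : G ⧸ V) ∈ W := by
    intro b hb
    apply hCw
    rcases hconj (QuotientGroup.mk b) with h1 | h1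
    · exact h1
    · exfalso
      -- b inverts w, so b^3 = 1 inverts w
      set B := (QuotientGroup.mk b : G ⧸ V) with hB
      have hB3 : B ^ 3 = 1 := by rw [hB, ← QuotientGroup.mk_pow, hb]; rfl
      have h2 : B ^ 3 * w * (B ^ 3)⁻¹ = w⁻¹ := by
        calc B ^ 3 * w * (B ^ 3)⁻¹ = B * (B * (B * w * B⁻¹) * B⁻¹) * B⁻¹ := by
              rw [pow_succ, pow_two]; group
          _ = B * (B * w⁻¹ * B⁻¹) * B⁻¹ := by rw [h1]
          _ = B * (B * w * B⁻¹)⁻¹ * B⁻¹ := by group
          _ = B * w⁻¹⁻¹ * B⁻¹ := by rw [h1]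
          _ = B * w * B⁻¹ := by rw [inv_inv]
          _ = w⁻¹ := h1
      rw [hB3, one_mul, inv_one, mul_one] at h2
      have h3 : w * w = 1 := by
        nth_rewrite 1 [h2]; exact inv_mul_cancel w
      apply hw1
      rw [pow_succ, pow_two, h3, one_mul] at hw3
      exact hw3
  -- the element b
  have hx3q : (QuotientGroup.mk x3 : G ⧸ V) ∈ W := hbmem x3 hx33
  have hx3q1 : (QuotientGroup.mk x3 : G ⧸ V) ≠ 1 := fun h1 => hx31 (hV3 x3 ((QuotientGroup.eq_one_iff x3).1 h1) hx33)
  have hx3q3 : (QuotientGroup.mk x3 : G ⧸ V) ^ 3 = 1 := by rw [← QuotientGroup.mk_pow, hx33]; rfl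
  -- class at most two
  let β : MulAut V := MulAut.conjNormal x3
  have hβ : ∀ v : V, ((β v : V) : G) = x3 * v * x3⁻¹ := fun v => rfl
  have hβf : ∀ v : V, β v = v → v = 1 := by
    intro v hv
    have h1 : x3 * v * x3⁻¹ = v := by rw [← hβ, hv]
    exact Subtype.ext (hfpf x3 hx33 hx31 v v.2 (mul_inv_eq_iff_eq_mul.1 h1))
  have hβ3 : β ^ 3 = 1 := by
    show (MulAut.conjNormal x3 : MulAut V) ^ 3 = 1
    rw [← map_pow, hx33, map_one]
  have hβ1 : β ≠ 1 := by
    intro h1
    apply hVne
    rw [Subgroup.eq_bot_iff_forall]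
    intro v hv
    have := hβf ⟨v, hv⟩ (by rw [h1]; rfl)
    exact congrArg Subtype.val this
  have hβo : orderOf β = 3 := orderOf_eq_prime hβ3 hβ1
  have hcs := (S3779.result Nat.prime_three β hβo hβf).2.1 rfl
  haveI hnil : Group.IsNilpotent V := Subgroup.nilpotent_iff_lowerCentralSeries.2 ⟨2, hcs⟩
  have hcls : Group.nilpotencyClass V ≤ 2 := Subgroup.lowerCentralSeries_eq_bot_iff_nilpotencyClass_le.1 hcs
  by_cases hall : ∀ g : G ⧸ V, g ∈ W
  · left
    have hWt : W = ⊤ := by rw [eq_top_iff]; intro g _; exact hall g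
    have hidx : V.index = 3 := by
      show Nat.card (G ⧸ V) = 3
      rw [← Subgroup.card_top, ← hWt, hWc]
    refine ⟨hV, ?_, hcls, hidx⟩
    obtain ⟨x4, hx4⟩ := h.four
    have hx4V : x4 ∈ V := by
      rw [← QuotientGroup.eq_one_iff]
      have h1 : (QuotientGroup.mk x4 : G ⧸ V) ^ 4 = 1 := by
        rw [← QuotientGroup.mk_pow, ← hx4, pow_orderOf_eq_one]; rfl
      have h2 : (QuotientGroup.mk x4 : G ⧸ V) ^ 3 = 1 := by
        have h3 : Nat.card (G ⧸ V) = 3 := hidx
        rw [← h3]; exact pow_card_eq_one'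
      rw [pow_succ, h2, one_mul] at h1
      exact h1
    apply Nat.dvd_antisymm
    · apply Monoid.exponent_dvd_of_forall_pow_eq_one
      intro v
      exact Subtype.ext (hV4 v v.2)
    · rw [← hx4, ← Subgroup.orderOf_mk x4 hx4V]
      exact Monoid.order_dvd_exponent _
  · right
    push Not at hall
    obtain ⟨q, hq⟩ := hall
    have hqinv : q * w * q⁻¹ = w⁻¹ := (hconj q).resolve_left fun h1 => hq (hCw q h1)
    -- order six
    have hq6 : Nat.card (G ⧸ V) = 6 := by
      have h1 : W.index = 2 := by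
        rw [Subgroup.index_eq_two_iff]
        refine ⟨q, fun g => ?_⟩
        rcases hconj g with h2 | h2
        · have h3 : g ∈ W := hCw g h2
          right
          refine ⟨h3, fun h4 => hq ?_⟩
          have := mul_mem (inv_mem h3) h4
          rwa [inv_mul_cancel_left] at this
        · left
          refine ⟨hCw _ ?_, fun h3 => ?_⟩
          · calc g * q * w * (g * q)⁻¹ = g * (q * w * q⁻¹) * g⁻¹ := by group
              _ = g * w⁻¹ * g⁻¹ := by rw [hqinv]
              _ = (g * w * g⁻¹)⁻¹ := by group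
              _ = w := by rw [h2, inv_inv]
          · have h4 : g * w * g⁻¹ = w := by
              rw [hWz] at h3
              obtain ⟨n, rfl⟩ := h3
              have : Commute (w ^ n) w := (Commute.refl w).zpow_left n
              rw [mul_inv_eq_iff_eq_mul]; exact this.eq
            rw [h4] at h2
            have h5 : w * w = 1 := by
              nth_rewrite 1 [h2]; exact inv_mul_cancel w
            apply hw1
            rw [pow_succ, pow_two, h5, one_mul] at hw3
            exact hw3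
      have h2 := Subgroup.card_mul_index W
      rw [hWc, h1] at h2
      omega
    have hww : w⁻¹ ≠ w := by
      intro h2
      have h5 : w * w = 1 := by
        nth_rewrite 1 [← h2]; exact inv_mul_cancel w
      apply hw1
      rw [pow_succ, pow_two, h5, one_mul] at hw3
      exact hw3
    have hs3 : Nonempty (G ⧸ V ≃* Equiv.Perm (Fin 3)) := by
      apply s3_of_six hq6
      refine ⟨q, w, fun h1 => hww ?_⟩
      rw [← hqinv, h1]; group
    refine ⟨?_, hs3⟩
    -- an involution inverting x3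
    obtain ⟨c0, rfl⟩ := QuotientGroup.mk_surjective q
    -- q inverts the image of x3
    have hqx : (QuotientGroup.mk c0 : G ⧸ V) * QuotientGroup.mk x3 * (QuotientGroup.mk c0)⁻¹ = (QuotientGroup.mk x3)⁻¹ := by
      have h1 := hx3q
      rw [hWz] at h1
      obtain ⟨n, hn⟩ := h1
      have hn' : w ^ n = QuotientGroup.mk x3 := hn
      rw [← hn', ← conj_zpow, hqinv, inv_zpow]
    have hmemV : x3 * (c0 * x3 * c0⁻¹) ∈ V := by
      rw [← QuotientGroup.eq_one_iff]
      have : (QuotientGroup.mk (x3 * (c0 * x3 * c0⁻¹)) : G ⧸ V) =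
          QuotientGroup.mk x3 * (QuotientGroup.mk c0 * QuotientGroup.mk x3 * (QuotientGroup.mk c0)⁻¹) := rfl
      rw [this, hqx, mul_inv_cancel]
    -- all elements of the coset of x3⁻¹ are conjugate to x3⁻¹
    have hsurj : ∀ u : V, ∃ v : V, (v : G) * x3⁻¹ * (v : G)⁻¹ = x3⁻¹ * u := by
      have hinj : Function.Injective (fun v : V => (⟨x3 * (v : G) * x3⁻¹ * (v : G)⁻¹, by
          exact mul_mem (hVn.conj_mem v v.2 x3) (inv_mem v.2)⟩ : V)) := by
        intro v v' hvv
        have h1 : x3 * (v : G) * x3⁻¹ * (v : G)⁻¹ = x3 * (v' : G) * x3⁻¹ * (v' : G)⁻¹ := congrArg Subtype.val hvv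
        have h2 : x3 * ((v' : G)⁻¹ * v) * x3⁻¹ = (v' : G)⁻¹ * v := by
          calc x3 * ((v' : G)⁻¹ * v) * x3⁻¹ = (x3 * (v' : G) * x3⁻¹)⁻¹ * (x3 * (v : G) * x3⁻¹ * (v : G)⁻¹) * v := by group
            _ = (v' : G)⁻¹ * v := by rw [h1]; group
        have h3 := hfpf x3 hx33 hx31 _ (mul_mem (inv_mem v'.2) v.2) (mul_inv_eq_iff_eq_mul.1 h2)
        exact Subtype.ext (inv_mul_eq_one.1 h3).symm
      intro u
      obtain ⟨v, hv⟩ := (Finite.injective_iff_surjective.1 hinj) u
      refine ⟨v, ?_⟩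
      have h1 : x3 * (v : G) * x3⁻¹ * (v : G)⁻¹ = u := congrArg Subtype.val hv
      rw [← h1]; group
    obtain ⟨v, hv⟩ := hsurj ⟨x3 * (c0 * x3 * c0⁻¹), hmemV⟩
    have hv' : (v : G) * x3⁻¹ * (v : G)⁻¹ = c0 * x3 * c0⁻¹ := by rw [hv]; group
    set c := (v : G)⁻¹ * c0 with hc
    have hcx : c * x3 * c⁻¹ = x3⁻¹ := by
      calc c * x3 * c⁻¹ = (v : G)⁻¹ * (c0 * x3 * c0⁻¹) * v := by rw [hc]; group
        _ = x3⁻¹ := by rw [← hv']; group
    have hc2x : c ^ 2 * x3 = x3 * c ^ 2 := by
      have h1 : c ^ 2 * x3 * (c ^ 2)⁻¹ = x3 := by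
        calc c ^ 2 * x3 * (c ^ 2)⁻¹ = c * (c * x3 * c⁻¹) * c⁻¹ := by rw [pow_two]; group
          _ = c * x3⁻¹ * c⁻¹ := by rw [hcx]
          _ = (c * x3 * c⁻¹)⁻¹ := by group
          _ = x3 := by rw [hcx, inv_inv]
      exact mul_inv_eq_iff_eq_mul.1 h1
    have hx3ne : x3⁻¹ ≠ x3 := by
      intro h1
      have h2 : x3 * x3 = 1 := by nth_rewrite 1 [← h1]; exact inv_mul_cancel x3
      apply hx31
      rw [pow_succ, pow_two, h2, one_mul] at hx33
      exact hx33
    have hc2 : c ^ 2 = 1 := by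
      rcases h.pw c with h1 | h1
      · refine (h.no6 hc2x ?_ hx33).resolve_right hx31
        rw [← pow_mul, show 2 * 4 = 4 * 2 by norm_num, pow_mul, h1, one_pow]
      · exfalso
        have h2 : c ^ 2 = c⁻¹ := by
          rw [pow_succ] at h1
          exact eq_inv_of_mul_eq_one_left h1
        rw [h2] at hc2x
        apply hx3ne
        rw [← hcx]
        have h3 : c * x3 = x3 * c := by
          calc c * x3 = c * (x3 * c⁻¹) * c := by group
            _ = c * (c⁻¹ * x3) * c := by rw [hc2x]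
            _ = x3 * c := by group
        rw [h3]; group
    have hcV : c ∉ V := by
      intro h1
      have h2 : (QuotientGroup.mk c : G ⧸ V) = 1 := (QuotientGroup.eq_one_iff c).2 h1
      have h3 : (QuotientGroup.mk c : G ⧸ V) * QuotientGroup.mk x3 * (QuotientGroup.mk c)⁻¹ = (QuotientGroup.mk x3)⁻¹ := by
        have := congrArg (QuotientGroup.mk : G → G ⧸ V) hcx
        exact this
      rw [h2, one_mul, inv_one, mul_one] at h3
      have h4 : (QuotientGroup.mk x3 : G ⧸ V) * QuotientGroup.mk x3 = 1 := by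
        nth_rewrite 1 [h3]; exact inv_mul_cancel _
      apply hx3q1
      rw [pow_succ, pow_two, h4, one_mul] at hx3q3
      exact hx3q3
    have hcc : c * c = 1 := by rw [← pow_two]; exact hc2
    have hcinv : c⁻¹ = c := inv_eq_of_mul_eq_one_left hcc
    have hcb : c * x3 = x3 * x3 * c := by
      have h1 : x3⁻¹ = x3 * x3 := by
        apply inv_eq_of_mul_eq_one_left
        rw [← pow_two, ← pow_succ]; exact hx33
      rw [← h1, ← hcx]; group
    let A : Act V :=
      { b := MulAut.conjNormal x3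
        c := MulAut.conjNormal c
        b3 := fun u => by
          apply Subtype.ext
          show x3 * (x3 * (x3 * (u : G) * x3⁻¹) * x3⁻¹) * x3⁻¹ = u
          calc x3 * (x3 * (x3 * (u : G) * x3⁻¹) * x3⁻¹) * x3⁻¹ = x3 ^ 3 * u * (x3 ^ 3)⁻¹ := by
                rw [pow_succ, pow_two]; group
            _ = u := by rw [hx33]; group
        bf := hβf
        c2 := fun u => by
          apply Subtype.ext
          show c * (c * (u : G) * c⁻¹) * c⁻¹ = u
          calc c * (c * (u : G) * c⁻¹) * c⁻¹ = (c * c) * u * (c * c)⁻¹ := by group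
            _ = u := by rw [hcc]; group
        cb := fun u => by
          apply Subtype.ext
          show c * (x3 * (u : G) * x3⁻¹) * c⁻¹ = x3 * (x3 * (c * (u : G) * c⁻¹) * x3⁻¹) * x3⁻¹
          calc c * (x3 * (u : G) * x3⁻¹) * c⁻¹ = (c * x3) * u * (c * x3)⁻¹ := by group
            _ = _ := by rw [hcb]; group
        h4 := fun u => by
          apply Subtype.ext
          show (c * (u : G) * c⁻¹ * u) ^ 2 = 1
          have h1 : c * (u : G) * c⁻¹ * u = (c * u) ^ 2 := by
            rw [hcinv, pow_two]; group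
          rw [h1, ← pow_mul]
          rcases h.pw (c * u) with h2 | h2
          · exact h2
          · exfalso
            apply hcV
            rw [← QuotientGroup.eq_one_iff]
            have h3 : (QuotientGroup.mk (c * u) : G ⧸ V) = QuotientGroup.mk c := by
              rw [QuotientGroup.eq]
              have : (c * (u : G))⁻¹ * c = c⁻¹ * ((c * (u : G)⁻¹ * c⁻¹)) * c := by group
              rw [this]
              have h5 := hVn.conj_mem _ (hVn.conj_mem _ (inv_mem u.2) c) c⁻¹
              rwa [inv_inv] at h5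
            have h4 : (QuotientGroup.mk c : G ⧸ V) ^ 3 = 1 := by
              rw [← h3, ← QuotientGroup.mk_pow, h2]; rfl
            have h5 : (QuotientGroup.mk c : G ⧸ V) ^ 2 = 1 := by
              rw [← QuotientGroup.mk_pow, hc2]; rfl
            rw [pow_succ, h5, one_mul] at h4
            exact h4
        cl := fun x y z => H24.class_two_commute hcls x y z }
    obtain ⟨h1, h2⟩ := A.main hV
    exact ⟨⟨⟨h1⟩⟩, fun a ha => congrArg Subtype.val (h2 ⟨a, ha⟩)⟩

end Cfsg.Agent.H14.E4
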