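import Mathlib

set_option autoImplicit false

/-! Primitive soluble linear groups: fixed-point spaces. -/

namespace Cfsg.Agent.H14.PS

open Module
open scoped commutatorElement

theorem comm_le_iff {Γ : Type*} [Group Γ] {A K N : Subgroup Γ} [N.Normal] : ⁅A, K⁆ ≤ N ↔
    A.map (QuotientGroup.mk' N) ≤ Subgroup.centralizer ((K.map (QuotientGroup.mk' N) : Subgroup _) : Set _) := by
  rw [← Subgroup.commutator_eq_bot_iff_le_centralizer, ← Subgroup.map_commutator, Subgroup.map_eq_bot_iff,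
    QuotientGroup.ker_mk']

theorem comm_sup_le {Γ : Type*} [Group Γ] {A B K N : Subgroup Γ} [N.Normal] (h1 : ⁅A, K⁆ ≤ N)
    (h2 : ⁅B, K⁆ ≤ N) : ⁅A ⊔ B, K⁆ ≤ N := by
  rw [comm_le_iff] at *
  rw [Subgroup.map_sup]
  exact sup_le h1 h2

theorem exists_idem_pow {M : Type*} [Monoid M] [Finite M] (x : M) :
    ∃ k : ℕ, 0 < k ∧ x ^ k * x ^ k = x ^ k := by
  obtain ⟨a, b, hab, h⟩ := Finite.exists_ne_map_eq_of_infinite (fun n : ℕ => x ^ n)
  wlog hlt : a < b generalizing a b
  · exact this b a hab.symm h.symm (lt_of_le_of_ne (not_lt.1 hlt) hab.symm)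
  change x ^ a = x ^ b at h
  set d := b - a with hd
  have hd0 : 0 < d := by omega
  have h1 : ∀ m, a ≤ m → x ^ (m + d) = x ^ m := by
    intro m hm
    obtain ⟨c, rfl⟩ := Nat.exists_eq_add_of_le hm
    have e : a + c + d = b + c := by omega
    rw [e, pow_add, pow_add, ← h]
  have h2 : ∀ t m, a ≤ m → x ^ (m + t * d) = x ^ m := by
    intro t
    induction t with
    | zero => intro m _; simp
    | succ t ih =>
      intro m hm
      have e : m + (t + 1) * d = (m + t * d) + d := by ring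
      rw [e, h1 _ (by omega), ih m hm]
  refine ⟨(a + 1) * d, by positivity, ?_⟩
  rw [← pow_add]
  exact h2 (a + 1) ((a + 1) * d) (by nlinarith)

section
variable {F : Type*} [Field F] [Finite F] {V : Type*} [AddCommGroup V] [Module F V]
  [FiniteDimensional F V] {Γ : Type*} [Group Γ]

/-- fixed space -/
def fx (ρ : Γ →* Module.End F V) (g : Γ) : Submodule F V := LinearMap.ker (ρ g - 1)

omit [Finite F] [FiniteDimensional F V] in
theorem mem_fx {ρ : Γ →* Module.End F V} {g : Γ} {v : V} : v ∈ fx ρ g ↔ ρ g v = v := by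
  simp [fx, sub_eq_zero]

omit [Finite F] [FiniteDimensional F V] in
theorem rho_inv {ρ : Γ →* Module.End F V} (g : Γ) (v : V) : ρ g⁻¹ (ρ g v) = v := by
  rw [← Module.End.mul_apply, ← map_mul, inv_mul_cancel, map_one]; rfl

omit [Finite F] [FiniteDimensional F V] in
theorem rho_inv' {ρ : Γ →* Module.End F V} (g : Γ) (v : V) : ρ g (ρ g⁻¹ v) = v := by
  rw [← Module.End.mul_apply, ← map_mul, mul_inv_cancel, map_one]; rfl

/-- irreducible and primitive -/
structure IP (ρ : Γ →* Module.End F V) : Prop where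
  irr : ∀ W : Submodule F V, (∀ g, ∀ v ∈ W, ρ g v ∈ W) → W = ⊥ ∨ W = ⊤
  prim : ∀ (t : ℕ) (D : Fin t → Submodule F V), 2 ≤ t → (∀ i j, finrank F (D i) = finrank F (D j)) →
    (∀ i, 0 < finrank F (D i)) → iSupIndep D → iSup D = ⊤ →
    ¬ ∀ g, ∃ σ : Equiv.Perm (Fin t), ∀ i, (D i).map (ρ g) = D (σ i)

/-- A commutative subring of endomorphisms normalized by the group has no nontrivial idempotents. -/
theorem IP.idem {ρ : Γ →* Module.End F V} (h : IP ρ) (S : Subring (Module.End F V))
    (hc : ∀ x ∈ S, ∀ y ∈ S, x * y = y * x) (hn : ∀ g, ∀ x ∈ S, ρ g * x * ρ g⁻¹ ∈ S)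
    {e : Module.End F V} (he : e ∈ S) (hee : e * e = e) : e = 0 ∨ e = 1 := by
  classical
  haveI : Finite V := Module.finite_of_finite F
  haveI : Finite (Module.End F V) := Finite.of_injective (fun f : Module.End F V => (f : V → V))
    DFunLike.coe_injective
  by_contra hcon
  push Not at hcon
  obtain ⟨he0, he1⟩ := hcon
  -- a nonzero idempotent of minimal rank
  obtain ⟨f, ⟨hfS, hff, hf0⟩, hfmin⟩ := Set.exists_min_image
    {x : Module.End F V | x ∈ S ∧ x * x = x ∧ x ≠ 0} (fun x => finrank F (LinearMap.range x))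
    (Set.toFinite _) ⟨e, he, hee, he0⟩
  -- idempotents of rank at most that of `f`
  have key : ∀ p ∈ S, p * p = p → finrank F (LinearMap.range p) = finrank F (LinearMap.range f) →
      ∀ q ∈ S, q * q = q → p * q = 0 ∨ p * q = p := by
    intro p hp hpp hpr q hq hqq
    by_cases h0 : p * q = 0
    · exact Or.inl h0
    right
    have hpq : (p * q) * (p * q) = p * q := by
      calc (p * q) * (p * q) = p * (q * p) * q := by simp only [mul_assoc]
        _ = p * (p * q) * q := by rw [hc q hq p hp]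
        _ = (p * p) * (q * q) := by simp only [mul_assoc]
        _ = p * q := by rw [hpp, hqq]
    have h1 := hfmin (p * q) ⟨mul_mem hp hq, hpq, h0⟩
    have hle : LinearMap.range (p * q) ≤ LinearMap.range p := by
      rintro _ ⟨v, rfl⟩; exact ⟨q v, rfl⟩
    have heq : LinearMap.range (p * q) = LinearMap.range p :=
      Submodule.eq_of_le_of_finrank_le hle (by rw [hpr]; exact h1)
    have h2 : (p * q) * p = p := by
      apply LinearMap.ext
      intro v
      have h3 : p v ∈ LinearMap.range (p * q) := by rw [heq]; exact ⟨v, rfl⟩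
      obtain ⟨w, hw⟩ := h3
      change (p * q) (p v) = p v
      rw [← hw, ← Module.End.mul_apply, hpq]
    calc p * q = (p * p) * q := by rw [hpp]
      _ = p * (q * p) := by rw [mul_assoc, hc p hp q hq]
      _ = (p * q) * p := by rw [mul_assoc]
      _ = p := h2
  -- the orbit of `f`
  let c : Γ → Module.End F V := fun g => ρ g * f * ρ g⁻¹
  have hρ : ∀ g, ρ g⁻¹ * ρ g = 1 := fun g => by rw [← map_mul, inv_mul_cancel, map_one]
  have hρ' : ∀ g, ρ g * ρ g⁻¹ = 1 := fun g => by rw [← map_mul, mul_inv_cancel, map_one]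
  have hcS : ∀ g, c g ∈ S := fun g => hn g f hfS
  have hcc : ∀ g, c g * c g = c g := by
    intro g
    calc (ρ g * f * ρ g⁻¹) * (ρ g * f * ρ g⁻¹) = ρ g * f * (ρ g⁻¹ * ρ g) * f * ρ g⁻¹ := by
          simp only [mul_assoc]
      _ = ρ g * (f * f) * ρ g⁻¹ := by rw [hρ]; simp only [mul_assoc, mul_one]
      _ = _ := by rw [hff]
  have hcr : ∀ g, LinearMap.range (c g) = (LinearMap.range f).map (ρ g) := by
    intro g
    ext v
    constructor
    · rintro ⟨w, rfl⟩
      exact ⟨f (ρ g⁻¹ w), ⟨_, rfl⟩, rfl⟩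
    · rintro ⟨_, ⟨w, rfl⟩, rfl⟩
      refine ⟨ρ g w, ?_⟩
      change ρ g (f (ρ g⁻¹ (ρ g w))) = _
      rw [rho_inv]
  have hinj : ∀ g, Function.Injective (ρ g) := fun g => Function.LeftInverse.injective (rho_inv g)
  have hcf : ∀ g, finrank F (LinearMap.range (c g)) = finrank F (LinearMap.range f) := by
    intro g
    rw [hcr]
    exact (LinearEquiv.finrank_eq (Submodule.equivMapOfInjective (ρ g) (hinj g) _)).symm
  have hcm : ∀ a b, ρ a * c b * ρ a⁻¹ = c (a * b) := by
    intro a b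
    simp only [c, map_mul, mul_inv_rev, mul_assoc]
  have hc1 : c 1 = f := by simp [c]
  have horth : ∀ a b, c a ≠ c b → c a * c b = 0 := by
    intro a b hab
    rcases key (c a) (hcS a) (hcc a) (hcf a) (c b) (hcS b) (hcc b) with h1 | h1
    · exact h1
    rcases key (c b) (hcS b) (hcc b) (hcf b) (c a) (hcS a) (hcc a) with h2 | h2
    · rw [hc _ (hcS a) _ (hcS b)]; exact h2
    · exfalso; apply hab; rw [← h1, hc _ (hcS a) _ (hcS b), h2]
  let O : Finset (Module.End F V) := (Set.toFinite (Set.range c)).toFinset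
  have hO : ∀ x, x ∈ O ↔ ∃ g, c g = x := fun x => by simp [O]
  have horth' : ∀ x ∈ O, ∀ y ∈ O, x ≠ y → x * y = 0 := by
    intro x hx y hy hxy
    obtain ⟨a, rfl⟩ := (hO x).1 hx
    obtain ⟨b, rfl⟩ := (hO y).1 hy
    exact horth a b hxy
  have hOS : ∀ x ∈ O, x ∈ S := fun x hx => by obtain ⟨a, rfl⟩ := (hO x).1 hx; exact hcS a
  have hOi : ∀ x ∈ O, x * x = x := fun x hx => by obtain ⟨a, rfl⟩ := (hO x).1 hx; exact hcc a
  have hfO : f ∈ O := (hO f).2 ⟨1, hc1⟩
  have hOr : ∀ x ∈ O, finrank F (LinearMap.range x) = finrank F (LinearMap.range f) := fun x hx => by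
    obtain ⟨a, rfl⟩ := (hO x).1 hx; exact hcf a
  set s := ∑ x ∈ O, x with hs
  have hxs : ∀ x ∈ O, s * x = x := by
    intro x hx
    rw [hs, Finset.sum_mul, Finset.sum_eq_single x]
    · exact hOi x hx
    · intro y hy hyx; exact horth' y hy x hx hyx
    · intro hx'; exact absurd hx hx'
  have hss : s * s = s := by
    conv_lhs => rw [hs, Finset.mul_sum]
    rw [Finset.sum_congr rfl hxs]
  have hinvs : ∀ g, ρ g * s * ρ g⁻¹ = s := by
    intro g
    rw [hs, Finset.mul_sum, Finset.sum_mul]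
    refine Finset.sum_bij' (fun x _ => ρ g * x * ρ g⁻¹) (fun x _ => ρ g⁻¹ * x * ρ g) ?_ ?_ ?_ ?_ ?_
    · intro x hx
      obtain ⟨a, rfl⟩ := (hO x).1 hx
      rw [hcm]; exact (hO _).2 ⟨_, rfl⟩
    · intro x hx
      obtain ⟨a, rfl⟩ := (hO x).1 hx
      have := hcm g⁻¹ a
      rw [inv_inv] at this
      rw [this]; exact (hO _).2 ⟨_, rfl⟩
    · intro x _
      calc ρ g⁻¹ * (ρ g * x * ρ g⁻¹) * ρ g = (ρ g⁻¹ * ρ g) * x * (ρ g⁻¹ * ρ g) := by
            simp only [mul_assoc]
        _ = x := by rw [hρ]; simp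
    · intro x _
      calc ρ g * (ρ g⁻¹ * x * ρ g) * ρ g⁻¹ = (ρ g * ρ g⁻¹) * x * (ρ g * ρ g⁻¹) := by
            simp only [mul_assoc]
        _ = x := by rw [hρ']; simp
    · intro x _; rfl
  have hsr : LinearMap.range s = ⊤ := by
    rcases h.irr (LinearMap.range s) (by
      rintro g _ ⟨v, rfl⟩
      refine ⟨ρ g v, ?_⟩
      have h1 : s * ρ g = ρ g * s := by
        calc s * ρ g = (ρ g * s * ρ g⁻¹) * ρ g := by rw [hinvs]
          _ = ρ g * s * (ρ g⁻¹ * ρ g) := by simp only [mul_assoc]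
          _ = _ := by rw [hρ, mul_one]
      exact LinearMap.congr_fun h1 v) with h1 | h1
    · exfalso
      apply hf0
      rw [← hxs f hfO]
      have : s = 0 := LinearMap.range_eq_bot.1 h1
      rw [this, zero_mul]
    · exact h1
  have hs1 : s = 1 := by
    apply LinearMap.ext
    intro v
    have : v ∈ LinearMap.range s := by rw [hsr]; trivial
    obtain ⟨w, rfl⟩ := this
    rw [← Module.End.mul_apply, hss]; rfl
  by_cases hcard : 2 ≤ O.card
  · -- imprimitivity
    let φ : Fin O.card ≃ O := O.equivFin.symm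
    let D : Fin O.card → Submodule F V := fun i => LinearMap.range ((φ i : O) : Module.End F V)
    have hφ : ∀ i j, i ≠ j → ((φ i : O) : Module.End F V) ≠ (φ j : O) := by
      intro i j hij he
      exact hij (φ.injective (Subtype.ext he))
    apply h.prim O.card D hcard
    · intro i j
      exact (hOr _ (φ i).2).trans (hOr _ (φ j).2).symm
    · intro i
      rw [show finrank F (D i) = _ from hOr _ (φ i).2, Nat.pos_iff_ne_zero]
      intro h0
      exact hf0 (LinearMap.range_eq_bot.1 (Submodule.finrank_eq_zero.1 h0))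
    · intro i
      rw [Submodule.disjoint_def]
      intro v hv hv2
      have h1 : ((φ i : O) : Module.End F V) v = v := by
        obtain ⟨w, rfl⟩ := hv
        rw [← Module.End.mul_apply, hOi _ (φ i).2]
      have h2 : (⨆ j, ⨆ (_ : j ≠ i), D j) ≤ LinearMap.ker ((φ i : O) : Module.End F V) := by
        refine iSup₂_le fun j hj => ?_
        rintro _ ⟨w, rfl⟩
        rw [LinearMap.mem_ker, ← Module.End.mul_apply, horth' _ (φ i).2 _ (φ j).2 (hφ i j hj.symm)]
        rfl
      have h3 := h2 hv2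
      rw [LinearMap.mem_ker, h1] at h3
      exact h3
    · rw [eq_top_iff]
      intro v _
      have h1 : v = s v := by rw [hs1]; rfl
      rw [h1, hs, LinearMap.sum_apply]
      refine Submodule.sum_mem _ fun x hx => ?_
      have : D (φ.symm ⟨x, hx⟩) ≤ iSup D := le_iSup D _
      apply this
      change x v ∈ LinearMap.range ((φ (φ.symm ⟨x, hx⟩) : O) : Module.End F V)
      rw [Equiv.apply_symm_apply]; exact ⟨v, rfl⟩
    · intro g
      have hmem : ∀ x : O, ρ g * (x : Module.End F V) * ρ g⁻¹ ∈ O := by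
        intro x
        obtain ⟨a, ha⟩ := (hO _).1 x.2
        rw [← ha, hcm]; exact (hO _).2 ⟨_, rfl⟩
      have hmem' : ∀ x : O, ρ g⁻¹ * (x : Module.End F V) * ρ g ∈ O := by
        intro x
        obtain ⟨a, ha⟩ := (hO _).1 x.2
        have := hcm g⁻¹ a
        rw [inv_inv] at this
        rw [← ha, this]; exact (hO _).2 ⟨_, rfl⟩
      let τ : Equiv.Perm O :=
        { toFun := fun x => ⟨_, hmem x⟩
          invFun := fun x => ⟨_, hmem' x⟩
          left_inv := fun x => Subtype.ext (by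
            change ρ g⁻¹ * (ρ g * (x : Module.End F V) * ρ g⁻¹) * ρ g = x
            calc ρ g⁻¹ * (ρ g * (x : Module.End F V) * ρ g⁻¹) * ρ g
                = (ρ g⁻¹ * ρ g) * x * (ρ g⁻¹ * ρ g) := by simp only [mul_assoc]
              _ = x := by rw [hρ]; simp)
          right_inv := fun x => Subtype.ext (by
            change ρ g * (ρ g⁻¹ * (x : Module.End F V) * ρ g) * ρ g⁻¹ = x
            calc ρ g * (ρ g⁻¹ * (x : Module.End F V) * ρ g) * ρ g⁻¹
                = (ρ g * ρ g⁻¹) * x * (ρ g * ρ g⁻¹) := by simp only [mul_assoc]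
              _ = x := by rw [hρ']; simp) }
      refine ⟨φ.trans (τ.trans φ.symm), fun i => ?_⟩
      change (LinearMap.range ((φ i : O) : Module.End F V)).map (ρ g) =
        LinearMap.range ((φ (φ.symm (τ (φ i))) : O) : Module.End F V)
      rw [Equiv.apply_symm_apply]
      change _ = LinearMap.range (ρ g * ((φ i : O) : Module.End F V) * ρ g⁻¹)
      ext v
      constructor
      · rintro ⟨_, ⟨w, rfl⟩, rfl⟩
        refine ⟨ρ g w, ?_⟩
        change ρ g (((φ i : O) : Module.End F V) (ρ g⁻¹ (ρ g w))) = _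
        rw [rho_inv]
      · rintro ⟨w, rfl⟩
        exact ⟨_, ⟨ρ g⁻¹ w, rfl⟩, rfl⟩
  · -- only one idempotent in the orbit
    have hone : O = {f} := by
      apply Finset.eq_singleton_iff_unique_mem.2 ⟨hfO, fun x hx => ?_⟩
      by_contra hne
      exact hcard (Finset.one_lt_card.2 ⟨x, hx, f, hfO, hne⟩)
    rw [hone, Finset.sum_singleton] at hs
    have hf1 : f = 1 := hs.symm.trans hs1
    rcases key f hfS hff rfl e he hee with h1 | h1
    · rw [hf1, one_mul] at h1; exact he0 h1
    · rw [hf1, one_mul] at h1; exact he1 h1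

/-- nontrivial elements of abelian normal subgroups are fixed-point-free -/
theorem IP.fpf {ρ : Γ →* Module.End F V} (h : IP ρ) (Z : Subgroup Γ) (hZn : Z.Normal)
    (hZ : ∀ x ∈ Z, ∀ y ∈ Z, x * y = y * x) {y : Γ} (hy : y ∈ Z) (hy1 : ρ y ≠ 1) : fx ρ y = ⊥ := by
  classical
  haveI : Finite V := Module.finite_of_finite F
  haveI : Finite (Module.End F V) := Finite.of_injective (fun f : Module.End F V => (f : V → V))
    DFunLike.coe_injective
  -- the subring generated by `Z`
  let S : Subring (Module.End F V) := Subring.closure (ρ '' (Z : Set Γ))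
  have hgen : ∀ x ∈ ρ '' (Z : Set Γ), ∀ y ∈ ρ '' (Z : Set Γ), x * y = y * x := by
    rintro _ ⟨a, ha, rfl⟩ _ ⟨b, hb, rfl⟩
    rw [← map_mul, ← map_mul, hZ a ha b hb]
  have hc : ∀ x ∈ S, ∀ y ∈ S, x * y = y * x := by
    letI := Subring.closureCommRingOfComm hgen
    intro x hx y hy
    exact congrArg Subtype.val (mul_comm (⟨x, hx⟩ : S) ⟨y, hy⟩)
  have hρ : ∀ g, ρ g⁻¹ * ρ g = 1 := fun g => by rw [← map_mul, inv_mul_cancel, map_one]
  have hρ' : ∀ g, ρ g * ρ g⁻¹ = 1 := fun g => by rw [← map_mul, mul_inv_cancel, map_one]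
  have hn : ∀ g, ∀ x ∈ S, ρ g * x * ρ g⁻¹ ∈ S := by
    intro g x hx
    induction hx using Subring.closure_induction with
    | mem x hx =>
      obtain ⟨a, ha, rfl⟩ := hx
      apply Subring.subset_closure
      exact ⟨g * a * g⁻¹, hZn.conj_mem a ha g, by rw [map_mul, map_mul]⟩
    | zero => rw [mul_zero, zero_mul]; exact zero_mem _
    | one => rw [mul_one, hρ']; exact one_mem _
    | add x y _ _ hx hy => rw [mul_add, add_mul]; exact add_mem hx hy
    | neg x _ hx => rw [mul_neg, neg_mul]; exact neg_mem hx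
    | mul x y _ _ hx hy =>
      have e : ρ g * (x * y) * ρ g⁻¹ = (ρ g * x * ρ g⁻¹) * (ρ g * y * ρ g⁻¹) := by
        calc ρ g * (x * y) * ρ g⁻¹ = ρ g * x * 1 * y * ρ g⁻¹ := by simp only [mul_assoc, one_mul]
          _ = ρ g * x * (ρ g⁻¹ * ρ g) * y * ρ g⁻¹ := by rw [hρ]
          _ = _ := by simp only [mul_assoc]
      rw [e]; exact mul_mem hx hy
  have hyS : ρ y ∈ S := Subring.subset_closure ⟨y, hy, rfl⟩
  set x := ρ y - 1 with hx
  have hxS : x ∈ S := sub_mem hyS (one_mem _)
  obtain ⟨k, hk0, hk⟩ := exists_idem_pow x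
  rcases h.idem S hc hn (pow_mem hxS k) hk with h0 | h1
  · -- nilpotent case
    exfalso
    have hx0 : x ≠ 0 := fun h => hy1 (sub_eq_zero.1 h)
    -- common kernel of the nilpotent elements
    let K : Submodule F V := ⨅ r : {r : Module.End F V // r ∈ S ∧ ∃ j : ℕ, r ^ j = 0}, LinearMap.ker r.1
    have hKmem : ∀ v, v ∈ K ↔ ∀ r ∈ S, (∃ j : ℕ, r ^ j = 0) → r v = 0 := by
      intro v
      simp only [K, Submodule.mem_iInf, LinearMap.mem_ker]
      exact ⟨fun h r hr hj => h ⟨r, hr, hj⟩, fun h r => h r.1 r.2.1 r.2.2⟩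
    have hKinv : ∀ g, ∀ v ∈ K, ρ g v ∈ K := by
      intro g v hv
      rw [hKmem] at hv ⊢
      rintro r hr ⟨j, hj⟩
      have e1 : ρ g⁻¹ * r * ρ g ∈ S := by
        have := hn g⁻¹ r hr
        rwa [inv_inv] at this
      have e2 : ∀ i : ℕ, (ρ g⁻¹ * r * ρ g) ^ i = ρ g⁻¹ * r ^ i * ρ g := by
        intro i
        induction i with
        | zero => rw [pow_zero, pow_zero, mul_one, hρ]
        | succ i ih =>
          rw [pow_succ, ih, pow_succ]
          calc ρ g⁻¹ * r ^ i * ρ g * (ρ g⁻¹ * r * ρ g) = ρ g⁻¹ * r ^ i * (ρ g * ρ g⁻¹) * r * ρ g := by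
                simp only [mul_assoc]
            _ = _ := by rw [hρ', mul_one]; simp only [mul_assoc]
      have e3 := hv _ e1 ⟨j, by rw [e2, hj, mul_zero, zero_mul]⟩
      have e4 : ρ g ((ρ g⁻¹ * r * ρ g) v) = 0 := by rw [e3, map_zero]
      change ρ g (ρ g⁻¹ (r (ρ g v))) = 0 at e4
      rwa [rho_inv'] at e4
    rcases h.irr K hKinv with hK | hK
    · -- a minimal nonzero invariant subspace
      obtain ⟨w, hw⟩ : ∃ w, x w ≠ 0 := by
        by_contra hcon
        push Not at hcon
        exact hx0 (LinearMap.ext hcon)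
      have hw0 : w ≠ 0 := fun h => hw (by rw [h, map_zero])
      obtain ⟨U, ⟨hU0, hUS⟩, hUmin⟩ := Set.exists_min_image
        {U : Submodule F V | U ≠ ⊥ ∧ ∀ r ∈ S, ∀ v ∈ U, r v ∈ U} (fun U => finrank F U)
        (by
          haveI : Finite (Submodule F V) := Finite.of_injective (fun U => (U : Set V)) SetLike.coe_injective
          exact Set.toFinite _)
        ⟨⊤, by
          refine ⟨?_, fun _ _ _ _ => trivial⟩
          intro h
          apply hw0
          have : w ∈ (⊤ : Submodule F V) := trivial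
          rw [h, Submodule.mem_bot] at this; exact this⟩
      apply hU0
      rw [eq_bot_iff, ← hK]
      intro v hv
      rw [hKmem]
      rintro r hr ⟨j, hj⟩
      -- `ker r ⊓ U` is invariant and nonzero
      have hne : LinearMap.ker r ⊓ U ≠ ⊥ := by
        intro hbot
        have hinj : ∀ v ∈ U, r v = 0 → v = 0 := by
          intro v hv h0
          have : v ∈ LinearMap.ker r ⊓ U := ⟨h0, hv⟩
          rw [hbot, Submodule.mem_bot] at this; exact this
        have hpow : ∀ i : ℕ, ∀ v ∈ U, (r ^ i) v = 0 → v = 0 := by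
          intro i
          induction i with
          | zero => intro v _ h; simpa using h
          | succ i ih =>
            intro v hv h
            rw [pow_succ] at h
            change (r ^ i) (r v) = 0 at h
            exact hinj v hv (ih _ (hUS r hr v hv) h)
        obtain ⟨u, hu, hu0⟩ := Submodule.exists_mem_ne_zero_of_ne_bot hU0
        exact hu0 (hpow j u hu (by rw [hj]; rfl))
      have h2 := hUmin (LinearMap.ker r ⊓ U) ⟨hne, by
        rintro q hq v ⟨hv1, hv2⟩
        refine ⟨?_, hUS q hq v hv2⟩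
        change r (q v) = 0
        rw [← Module.End.mul_apply, hc r hr q hq, Module.End.mul_apply]
        have : r v = 0 := hv1
        rw [this, map_zero]⟩
      have h3 := Submodule.eq_of_le_of_finrank_le (inf_le_right : LinearMap.ker r ⊓ U ≤ U) h2
      have h4 : v ∈ LinearMap.ker r ⊓ U := by rw [h3]; exact hv
      exact h4.1
    · apply hx0
      apply LinearMap.ext
      intro v
      have hv : v ∈ K := by rw [hK]; trivial
      rw [hKmem] at hv
      exact hv x hxS ⟨k, h0⟩
  · rw [eq_bot_iff]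
    intro v hv
    rw [mem_fx] at hv
    have h2 : x v = 0 := by rw [hx]; simp [hv]
    have h3 : (x ^ k) v = 0 := by
      obtain ⟨j, rfl⟩ := Nat.exists_eq_add_of_lt hk0
      rw [zero_add, pow_succ, Module.End.mul_apply, h2, map_zero]
    rw [h1] at h3
    exact h3

omit [Finite F] in
/-- two conjugates -/
theorem two_mul_fx_le (ρ : Γ →* Module.End F V) (g x : Γ) :
    2 * finrank F (fx ρ g) ≤ finrank F V + finrank F (fx ρ (g * (x * g⁻¹ * x⁻¹))) := by
  have h1 : fx ρ (x * g⁻¹ * x⁻¹) = (fx ρ g).map (ρ x) := by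
    ext v
    rw [mem_fx]
    constructor
    · intro h
      refine ⟨ρ x⁻¹ v, ?_, rho_inv' x v⟩
      rw [SetLike.mem_coe, mem_fx]
      rw [map_mul, map_mul] at h
      change ρ x (ρ g⁻¹ (ρ x⁻¹ v)) = v at h
      have h2 : ρ g⁻¹ (ρ x⁻¹ v) = ρ x⁻¹ v := by
        have := congrArg (ρ x⁻¹) h
        rwa [rho_inv] at this
      have := congrArg (ρ g) h2
      rw [rho_inv'] at this
      exact this.symm
    · rintro ⟨w, hw, rfl⟩
      rw [SetLike.mem_coe, mem_fx] at hw
      rw [map_mul, map_mul]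
      change ρ x (ρ g⁻¹ (ρ x⁻¹ (ρ x w))) = ρ x w
      rw [rho_inv]
      congr 1
      have := congrArg (ρ g⁻¹) hw
      rw [rho_inv] at this
      exact this.symm
  have hinj : Function.Injective (ρ x) := Function.LeftInverse.injective (rho_inv x)
  have h2 : finrank F (fx ρ (x * g⁻¹ * x⁻¹)) = finrank F (fx ρ g) := by
    rw [h1]
    exact (LinearEquiv.finrank_eq (Submodule.equivMapOfInjective (ρ x) hinj _)).symm
  have h3 : fx ρ g ⊓ fx ρ (x * g⁻¹ * x⁻¹) ≤ fx ρ (g * (x * g⁻¹ * x⁻¹)) := by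
    rintro v ⟨hv1, hv2⟩
    rw [SetLike.mem_coe, mem_fx] at hv1 hv2
    rw [mem_fx, map_mul, Module.End.mul_apply, hv2, hv1]
  have h4 := Submodule.finrank_sup_add_finrank_inf_eq (fx ρ g) (fx ρ (x * g⁻¹ * x⁻¹))
  have h5 : finrank F ↥(fx ρ g ⊔ fx ρ (x * g⁻¹ * x⁻¹)) ≤ finrank F V := Submodule.finrank_le _
  have h6 := Submodule.finrank_mono h3
  omega

theorem main [Finite Γ] {ρ : Γ →* Module.End F V} (h : IP ρ) (hinj : Function.Injective ρ)
    (hsol : IsSolvable Γ) {g : Γ} (hg : g ≠ 1) : 4 * finrank F (fx ρ g) ≤ 3 * finrank F V := by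
  classical
  have hne : ∀ y : Γ, y ≠ 1 → ρ y ≠ 1 := fun y hy h => hy (hinj (by rw [h, map_one]))
  -- a maximal abelian normal subgroup
  obtain ⟨Z, ⟨hZn, hZc⟩, hZmax⟩ := Set.exists_max_image
    {Z : Subgroup Γ | Z.Normal ∧ ∀ x ∈ Z, ∀ y ∈ Z, x * y = y * x} (fun Z => Nat.card Z)
    (Set.toFinite _) ⟨⊥, inferInstance, by
      rintro x hx y hy
      rw [Subgroup.mem_bot] at hx hy
      rw [hx, hy]⟩
  haveI := hZn
  set D := Subgroup.centralizer (Z : Set Γ) with hD
  haveI hDn : D.Normal := Subgroup.normal_centralizer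
  have hZD : Z ≤ D := fun x hx => Subgroup.mem_centralizer_iff.2 fun y hy => hZc y hy x hx
  obtain ⟨E, ⟨hEn, hZE, hED, hEE⟩, hEmax⟩ := Set.exists_max_image
    {E : Subgroup Γ | E.Normal ∧ Z ≤ E ∧ E ≤ D ∧ ⁅E, E⁆ ≤ Z} (fun E => Nat.card E)
    (Set.toFinite _) ⟨Z, hZn, le_rfl, hZD, by
      rw [Subgroup.commutator_le]
      intro a ha b hb
      have : ⁅a, b⁆ = 1 := by rw [commutatorElement_eq_one_iff_mul_comm]; exact hZc a ha b hb
      rw [this]; exact one_mem _⟩
  haveI := hEn
  set K := D ⊓ Subgroup.centralizer (E : Set Γ) with hK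
  haveI hCEn : (Subgroup.centralizer (E : Set Γ)).Normal := Subgroup.normal_centralizer
  haveI hKn : K.Normal := inferInstance
  -- the centre of `E` is `Z`
  have hZE' : E ⊓ Subgroup.centralizer (E : Set Γ) ≤ Z := by
    have h1 : Z ≤ E ⊓ Subgroup.centralizer (E : Set Γ) := by
      refine le_inf hZE ?_
      intro z hz
      rw [Subgroup.mem_centralizer_iff]
      intro e he
      exact (Subgroup.mem_centralizer_iff.1 (hED he) z hz).symm
    have h2 := hZmax (E ⊓ Subgroup.centralizer (E : Set Γ)) ⟨inferInstance, by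
      rintro x hx y hy
      exact Subgroup.mem_centralizer_iff.1 hy.2 x hx.1⟩
    exact (Subgroup.eq_of_le_of_card_ge h1 h2).ge
  -- `C_D(E) ≤ E`
  have hKE : K ≤ E := by
    by_contra hcon
    obtain ⟨N, hN0, hNs⟩ : ∃ N : ℕ → Subgroup Γ, N 0 = K ∧ ∀ i, N (i + 1) = ⁅N i, N i⁆ :=
      ⟨fun i => Nat.rec K (fun _ M => ⁅M, M⁆) i, rfl, fun _ => rfl⟩
    have hNn : ∀ i, (N i).Normal := by
      intro i
      induction i with
      | zero => rw [hN0]; exact hKn
      | succ i ih => rw [hNs]; infer_instance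
    have hNK : ∀ i, N i ≤ K := by
      intro i
      induction i with
      | zero => rw [hN0]
      | succ i ih =>
        haveI := hNn i
        rw [hNs]
        exact (Subgroup.commutator_le_left _ _).trans ih
    have hND : ∀ i, N i ≤ derivedSeries Γ i := by
      intro i
      induction i with
      | zero => exact le_top
      | succ i ih => rw [hNs, derivedSeries_succ]; exact Subgroup.commutator_mono ih ih
    obtain ⟨n, hn⟩ := hsol.solvable
    have hex : ∃ i, N i ≤ E := ⟨n, by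
      have := hND n
      rw [hn] at this
      exact this.trans bot_le⟩
    have hf := Nat.find_spec hex
    have hf0 : Nat.find hex ≠ 0 := by
      intro h0
      rw [h0, hN0] at hf
      exact hcon hf
    obtain ⟨i, hi⟩ := Nat.exists_eq_succ_of_ne_zero hf0
    have hNi : ¬ N i ≤ E := Nat.find_min hex (by omega)
    rw [hi] at hf
    have hNi1 : ⁅N i, N i⁆ ≤ E := by rw [← hNs]; exact hf
    haveI := hNn i
    have hNiC : N i ≤ Subgroup.centralizer (E : Set Γ) := (hNK i).trans inf_le_right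
    have h1 : ⁅N i, N i⁆ ≤ Z :=
      (le_inf hNi1 ((Subgroup.commutator_le_left _ _).trans hNiC)).trans hZE'
    have h2 : ⁅E ⊔ N i, E ⊔ N i⁆ ≤ Z := by
      have h3 : ⁅E, N i⁆ = ⊥ := by
        rw [Subgroup.commutator_eq_bot_iff_le_centralizer, Subgroup.le_centralizer_iff]
        exact hNiC
      have h4 : ⁅N i, E⁆ = ⊥ := by rw [Subgroup.commutator_comm]; exact h3
      have h5 : ⁅E ⊔ N i, E⁆ ≤ Z := comm_sup_le hEE (by rw [h4]; exact bot_le)
      have h6 : ⁅E ⊔ N i, N i⁆ ≤ Z := comm_sup_le (by rw [h3]; exact bot_le) h1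
      rw [Subgroup.commutator_comm] at h5 h6
      exact comm_sup_le h5 h6
    have h3 := hEmax (E ⊔ N i) ⟨Subgroup.sup_normal _ _, hZE.trans le_sup_left,
      sup_le hED ((hNK i).trans inf_le_left), h2⟩
    have h4 : E = E ⊔ N i := Subgroup.eq_of_le_of_card_ge le_sup_left h3
    exact hNi (h4 ▸ le_sup_right)
  have hKZ : K ≤ Z := (le_inf hKE inf_le_right).trans hZE'
  -- fixed-point-free elements
  have fZ : ∀ y ∈ Z, y ≠ 1 → finrank F (fx ρ y) = 0 := by
    intro y hy hy1
    rw [h.fpf Z hZn hZc hy (hne y hy1), finrank_bot]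
  have hcomm : ∀ {a x : Γ}, a * x ≠ x * a → a * (x * a⁻¹ * x⁻¹) ≠ 1 := by
    intro a x hax h1
    apply hax
    have h2 : a * x * a⁻¹ * x⁻¹ = 1 := by rw [← h1]; group
    rw [mul_inv_eq_one, mul_inv_eq_iff_eq_mul] at h2
    exact h2
  -- elements of `E`
  have fE : ∀ y ∈ E, y ≠ 1 → 2 * finrank F (fx ρ y) ≤ finrank F V := by
    intro y hy hy1
    by_cases hyZ : y ∈ Z
    · rw [fZ y hyZ hy1]; omega
    · have : ∃ x ∈ E, y * x ≠ x * y := by
        by_contra hcon
        push Not at hcon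
        exact hyZ (hZE' ⟨hy, Subgroup.mem_centralizer_iff.2 fun x hx => (hcon x hx).symm⟩)
      obtain ⟨x, hx, hxy⟩ := this
      have h1 := two_mul_fx_le ρ y x
      have h2 : y * (x * y⁻¹ * x⁻¹) ∈ Z := by
        have e : y * (x * y⁻¹ * x⁻¹) = ⁅y, x⁆ := by simp only [commutatorElement_def, mul_assoc]
        rw [e]; exact hEE (Subgroup.commutator_mem_commutator hy hx)
      rw [fZ _ h2 (hcomm hxy)] at h1
      omega
  by_cases hgD : g ∈ D
  · by_cases hgZ : g ∈ Z
    · rw [fZ g hgZ hg]; omega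
    · have : ∃ x ∈ E, g * x ≠ x * g := by
        by_contra hcon
        push Not at hcon
        exact hgZ (hKZ ⟨hgD, Subgroup.mem_centralizer_iff.2 fun x hx => (hcon x hx).symm⟩)
      obtain ⟨x, hx, hxy⟩ := this
      have h1 := two_mul_fx_le ρ g x
      have h2 : g * (x * g⁻¹ * x⁻¹) ∈ E := by
        have e : g * (x * g⁻¹ * x⁻¹) = (g * x * g⁻¹) * x⁻¹ := by group
        rw [e]; exact mul_mem (hEn.conj_mem x hx g) (inv_mem hx)
      have h3 := fE _ h2 (hcomm hxy)
      omega
  · have : ∃ x ∈ Z, g * x ≠ x * g := by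
      by_contra hcon
      push Not at hcon
      exact hgD (Subgroup.mem_centralizer_iff.2 fun x hx => (hcon x hx).symm)
    obtain ⟨x, hx, hxy⟩ := this
    have h1 := two_mul_fx_le ρ g x
    have h2 : g * (x * g⁻¹ * x⁻¹) ∈ Z := by
      have e : g * (x * g⁻¹ * x⁻¹) = (g * x * g⁻¹) * x⁻¹ := by group
      rw [e]; exact mul_mem (hZn.conj_mem x hx g) (inv_mem hx)
    rw [fZ _ h2 (hcomm hxy)] at h1
    omega

end

end Cfsg.Agent.H14.PS
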