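import Cfsg.Agent.H14.Avg
import Cfsg.Agent.L.KCtl2
import Cfsg.Agent.H18.PRes
import Cfsg.Agent.L.IndexP

/-!
H14/StabC: `p`-stability of groups with a normal series (`p`-group, abelian `p'`-group, `p`-group), `p` odd.
-/

set_option autoImplicit false

namespace Cfsg.Agent.H14

universe u

open scoped commutatorElement
open Subgroup

/-- the class of groups with a normal series `1 ≤ H ≤ K ≤ Y`: `H` a `p`-group, `K/H` abelian `p'`, `Y/K` a `p`-group -/
def InC (p : ℕ) (Y : Type*) [Group Y] : Prop :=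
  ∃ H K : Subgroup Y, H.Normal ∧ K.Normal ∧ H ≤ K ∧ IsPGroup p H ∧ ⁅K, K⁆ ≤ H ∧
    (∃ m : ℕ, m.Coprime p ∧ ∀ k ∈ K, k ^ m ∈ H) ∧ ∀ y : Y, ∃ j : ℕ, y ^ p ^ j ∈ K

variable {p : ℕ}

theorem InC.of_injective {Y Z : Type*} [Group Y] [Group Z] (f : Z →* Y) (hf : Function.Injective f)
    (h : InC p Y) : InC p Z := by
  obtain ⟨H, K, hH, hK, hHK, hHp, hc, ⟨m, hm, hmk⟩, hj⟩ := h
  refine ⟨H.comap f, K.comap f, hH.comap f, hK.comap f, Subgroup.comap_mono hHK,
    hHp.comap_of_injective f hf, ?_, ⟨m, hm, ?_⟩, ?_⟩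
  · rw [← Subgroup.map_le_iff_le_comap, Subgroup.map_commutator]
    exact (commutator_mono (Subgroup.map_comap_le _ _) (Subgroup.map_comap_le _ _)).trans hc
  · intro k hk
    rw [Subgroup.mem_comap, map_pow]
    exact hmk _ hk
  · intro y
    obtain ⟨j, hj⟩ := hj (f y)
    exact ⟨j, by rw [Subgroup.mem_comap, map_pow]; exact hj⟩

theorem InC.of_surjective {Y Z : Type*} [Group Y] [Group Z] (f : Y →* Z) (hf : Function.Surjective f)
    (h : InC p Y) : InC p Z := by
  obtain ⟨H, K, hH, hK, hHK, hHp, hc, ⟨m, hm, hmk⟩, hj⟩ := h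
  refine ⟨H.map f, K.map f, hH.map f hf, hK.map f hf, Subgroup.map_mono hHK,
    hHp.map f, ?_, ⟨m, hm, ?_⟩, ?_⟩
  · rw [← Subgroup.map_commutator]
    exact Subgroup.map_mono hc
  · rintro _ ⟨k, hk, rfl⟩
    rw [← map_pow]
    exact ⟨_, hmk _ hk, rfl⟩
  · intro z
    obtain ⟨y, rfl⟩ := hf z
    obtain ⟨j, hj⟩ := hj y
    exact ⟨j, by rw [← map_pow]; exact ⟨_, hj, rfl⟩⟩

variable [Fact p.Prime]

theorem mem_pCore_of_cent {X : Type*} [Group X] [Finite X] {K : Subgroup X} [hKn : K.Normal]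
    (hK : ∀ y : X, ∃ j : ℕ, y ^ p ^ j ∈ K) {g : X} (hg : ∃ k : ℕ, g ^ p ^ k = 1)
    (hgK : g ∈ centralizer (K : Set X)) : g ∈ Cfsg.pCore p X := by
  have hgp : IsPGroup p (zpowers g) := by
    obtain ⟨k, hk⟩ := hg
    rintro ⟨x, hx⟩
    obtain ⟨n, rfl⟩ := mem_zpowers_iff.1 hx
    refine ⟨k, Subtype.ext ?_⟩
    change (g ^ n) ^ p ^ k = 1
    rw [← zpow_natCast, ← zpow_mul, mul_comm, zpow_mul, zpow_natCast, hk, one_zpow]
  obtain ⟨T, hT⟩ := hgp.exists_le_sylow
  have htop : (T : Subgroup X) ⊔ K = ⊤ := by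
    rw [← Subgroup.index_eq_one]
    have h1 : ((T : Subgroup X) ⊔ K).index ∣ (T : Subgroup X).index := index_dvd_of_le le_sup_left
    have h2 : ((T : Subgroup X) ⊔ K).index ∣ K.index := index_dvd_of_le le_sup_right
    have h3 : IsPGroup p (X ⧸ K) := by
      intro y
      obtain ⟨y, rfl⟩ := QuotientGroup.mk'_surjective K y
      obtain ⟨j, hj⟩ := hK y
      exact ⟨j, by rw [← map_pow]; exact (QuotientGroup.eq_one_iff _).2 hj⟩
    obtain ⟨n, hn⟩ := IsPGroup.iff_card.1 h3
    have h4 : K.index = p ^ n := hn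
    rw [h4] at h2
    have h5 : ¬ p ∣ (T : Subgroup X).index := T.not_dvd_index
    have h6 : (p ^ n).Coprime (T : Subgroup X).index :=
      Nat.Coprime.pow_left n ((Nat.Prime.coprime_iff_not_dvd (Fact.out : p.Prime)).2 h5)
    exact Nat.eq_one_of_dvd_coprimes h6 h2 h1
  have hE : ((T : Subgroup X) ⊓ centralizer (K : Set X)).Normal := by
    haveI hcn := centralizer_normal' hKn
    rw [← normalizer_eq_top_iff, eq_top_iff, ← htop]
    refine sup_le ?_ ?_
    · intro t ht
      rw [mem_normalizer_cj, cj_inf, cj_eq_of_mem ht]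
      congr 1
      exact mem_normalizer_cj.1 (le_normalizer_of_normal' hcn (mem_top t))
    · intro x hx
      rw [mem_normalizer_cj]
      apply cj_eq_of_mem_centralizer
      rw [mem_centralizer_iff]
      intro y hy
      exact (mem_centralizer_iff.1 (mem_inf.1 hy).2 x hx).symm
  exact H1.le_pCore hE (T.isPGroup'.to_le inf_le_left) (mem_inf.2 ⟨hT (mem_zpowers g), hgK⟩)

theorem stab_main {X : Type*} [Group X] [Finite X] (hX : InC p X) (hp : p ≠ 2) {P : Subgroup X} [hPn : P.Normal]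
    (hP : IsPGroup p P) (C : Subgroup X) [hCn : C.Normal] (hC : C = centralizer (P : Set X)) {g : X}
    (hg : ⁅⁅P, zpowers g⁆, zpowers g⁆ = ⊥) : (QuotientGroup.mk g : X ⧸ C) ∈ Cfsg.pCore p (X ⧸ C) := by
  obtain ⟨H, K, hH, hK, hHK, hHp, hc, ⟨m, hm, hmk⟩, hj⟩ := hX
  obtain ⟨a, b, hab, ha, hb, hap, hbp⟩ := H18.exists_pPart_mul (p := p) g
  have hza : zpowers a ≤ zpowers g := by rwa [zpowers_le]
  have hzb : zpowers b ≤ zpowers g := by rwa [zpowers_le]
  have hqa : ⁅⁅P, zpowers a⁆, zpowers a⁆ = ⊥ := by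
    rw [eq_bot_iff, ← hg]
    exact commutator_mono (commutator_mono le_rfl hza) hza
  have hqb : ⁅⁅P, zpowers b⁆, zpowers b⁆ = ⊥ := by
    rw [eq_bot_iff, ← hg]
    exact commutator_mono (commutator_mono le_rfl hzb) hzb
  have hbC : b ∈ C := by
    have h1 := L.coprime_iter (p := p) hP (m := b) hbp (le_normalizer_of_normal' hPn) (n := 2) hqb
    rw [hC]
    rw [commutator_comm, commutator_eq_bot_iff_le_centralizer] at h1
    exact h1 (mem_zpowers b)
  have hgm : (QuotientGroup.mk g : X ⧸ C) = QuotientGroup.mk a := by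
    rw [← hab, QuotientGroup.mk_mul, (QuotientGroup.eq_one_iff b).2 hbC, mul_one]
  rw [hgm]
  -- the commutators of `a` with `K` centralize chief factors
  have hB : ∀ U V : Subgroup X, Cfsg.IsChiefFactor U V → (⊥ : Subgroup X) ≤ V → U ≤ P →
      ∀ x ∈ {x : X | ∃ k ∈ K, x = a * k * a⁻¹ * k⁻¹}, ⁅U, zpowers x⁆ ≤ V := by
    rintro U V hUV - hUP x ⟨k, hk, rfl⟩
    have hUp : IsPGroup p U := hP.to_le hUP
    have hUU := L.chief_comm_le hUV hUp hUV.2.1 hUp
    have hUH := L.chief_comm_le hUV hUp hH hHp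
    haveI hUn := hUV.2.1
    haveI hVn := hUV.2.2.1
    have hlt := hUV.1
    haveI hUnil : Group.IsNilpotent U := hUp.isNilpotent
    obtain ⟨-, q, hq, hUe, hUq⟩ := H1.chief_factor_solvable hVn hUn hlt
      (fun K' hK' h1 h2 => (hUV.2.2.2 K' hK' h1.le h2).resolve_left h1.ne') inferInstance
    have hqp : q = p := by
      haveI := Fact.mk hq
      obtain ⟨y, hyU, hyV⟩ := SetLike.exists_of_lt hlt
      by_contra hne
      apply hyV
      obtain ⟨i, hi⟩ := hUp ⟨y, hyU⟩
      have h1 : y ^ p ^ i ∈ V := by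
        have : y ^ p ^ i = 1 := congrArg Subtype.val hi
        rw [this]; exact one_mem V
      have h2 := hUe y hyU
      have h3 : (q).Coprime (p ^ i) := Nat.Coprime.pow_right i ((Nat.coprime_primes hq Fact.out).2 hne)
      have h4 : orderOf (QuotientGroup.mk' V y) ∣ q := by
        apply orderOf_dvd_of_pow_eq_one
        rw [← map_pow]; exact (QuotientGroup.eq_one_iff _).2 h2
      have h5 : orderOf (QuotientGroup.mk' V y) ∣ p ^ i := by
        apply orderOf_dvd_of_pow_eq_one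
        rw [← map_pow]; exact (QuotientGroup.eq_one_iff _).2 h1
      exact (QuotientGroup.eq_one_iff _).1 (orderOf_eq_one_iff.1 (Nat.eq_one_of_dvd_coprimes h3 h4 h5))
    subst hqp
    have hfs : Function.Surjective (QuotientGroup.mk' V) := QuotientGroup.mk'_surjective V
    haveI : (U.map (QuotientGroup.mk' V)).Normal := hUn.map _ hfs
    have hcentr : ∀ y : X, ⁅U, zpowers y⁆ ≤ V ↔
        QuotientGroup.mk' V y ∈ centralizer ((U.map (QuotientGroup.mk' V) : Subgroup (X ⧸ V)) : Set (X ⧸ V)) := by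
      intro y
      rw [← zpowers_le, ← MonoidHom.map_zpowers, ← commutator_eq_bot_iff_le_centralizer, ← Subgroup.map_commutator,
        Subgroup.map_eq_bot_iff, QuotientGroup.ker_mk', commutator_comm]
    rw [hcentr]
    have hcH : ∀ y ∈ H, QuotientGroup.mk' V y ∈ centralizer ((U.map (QuotientGroup.mk' V) : Subgroup (X ⧸ V)) : Set (X ⧸ V)) := by
      intro y hy
      rw [← hcentr]
      exact (commutator_mono le_rfl (by rwa [zpowers_le])).trans hUH
    have h := avg_conj (p := q) (A := U.map (QuotientGroup.mk' V)) ?_ ?_ (g := QuotientGroup.mk' V a) ?_ ?_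
      (K.map (QuotientGroup.mk' V)) ?_ ?_ ⟨m, hm, ?_⟩ (QuotientGroup.mk' V k) ⟨k, hk, rfl⟩
    · simpa only [map_mul, map_inv] using h
    · rintro _ ⟨u, hu, rfl⟩
      rw [← map_pow]; exact (QuotientGroup.eq_one_iff _).2 (hUe u hu)
    · rintro _ ⟨u, hu, rfl⟩ _ ⟨v, hv, rfl⟩
      have h1 := hUU (commutator_mem_commutator hu hv)
      have h2 : QuotientGroup.mk' V ⁅u, v⁆ = 1 := (QuotientGroup.eq_one_iff _).2 h1
      rw [map_commutatorElement, commutatorElement_eq_one_iff_mul_comm] at h2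
      exact h2
    · obtain ⟨i, hi⟩ := hap
      exact ⟨i, by rw [← map_pow, hi, map_one]⟩
    · rw [← MonoidHom.map_zpowers, iterCommutator_map, Subgroup.map_eq_bot_iff, QuotientGroup.ker_mk']
      have hp2 : 2 ≤ q - 1 := by
        have := hq.two_le
        omega
      have hanti : Antitone (fun n => Cfsg.iterCommutator U (zpowers a) n) :=
        antitone_nat_of_succ_le (fun n => L.iterCommutator_succ_le (L.normal_le_nz hUn _) n)
      refine (hanti hp2).trans ?_
      change ⁅⁅U, zpowers a⁆, zpowers a⁆ ≤ V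
      refine (commutator_mono (commutator_mono hUP le_rfl) le_rfl).trans ?_
      rw [hqa]; exact bot_le
    · rintro _ ⟨x, hx, rfl⟩
      exact ⟨a * x * a⁻¹, hK.conj_mem x hx a, by simp only [map_mul, map_inv]⟩
    · rintro _ ⟨x, hx, rfl⟩ _ ⟨y, hy, rfl⟩
      rw [← map_commutatorElement]
      exact hcH _ (hc (commutator_mem_commutator hx hy))
    · rintro _ ⟨x, hx, rfl⟩
      rw [← map_pow]
      exact hcH _ (hmk x hx)
  obtain ⟨n, hn⟩ := L.chief_chain (B := {x : X | ∃ k ∈ K, x = a * k * a⁻¹ * k⁻¹})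
    (V0 := ⊥) inferInstance (Nat.card P) P rfl hPn bot_le hB
  obtain ⟨M, hM⟩ : ∃ M, M = normalClosure {x : X | ∃ k ∈ K, x = a * k * a⁻¹ * k⁻¹} := ⟨_, rfl⟩
  rw [← hM] at hn
  haveI hMn : M.Normal := by rw [hM]; infer_instance
  have hMp : IsPGroup p (M.map (QuotientGroup.mk' C)) := by
    apply L.isPGroup_of_no_p'
    rintro _ ⟨y, hy, rfl⟩ hyp
    obtain ⟨i, hi, hi'⟩ := L.exists_p'_lift (QuotientGroup.mk' C) hyp
    rw [← hi']
    apply (QuotientGroup.eq_one_iff _).2
    have h1 : Cfsg.iterCommutator P (zpowers (y ^ i)) n = ⊥ := by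
      rw [eq_bot_iff]
      refine le_trans ?_ hn
      apply L.iterCommutator_mono le_rfl
      rw [zpowers_le]; exact pow_mem hy i
    have h2 := L.coprime_iter (p := p) hP hi (le_normalizer_of_normal' hPn) h1
    rw [hC]
    rw [commutator_comm, commutator_eq_bot_iff_le_centralizer] at h2
    exact h2 (mem_zpowers _)
  have hMle : M.map (QuotientGroup.mk' C) ≤ Cfsg.pCore p (X ⧸ C) :=
    H1.le_pCore (hMn.map _ (QuotientGroup.mk'_surjective C)) hMp
  haveI hOn : (Cfsg.pCore p (X ⧸ C)).Normal := H1.pCore_normal p _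
  obtain ⟨f, hf⟩ : ∃ f : X →* (X ⧸ C) ⧸ Cfsg.pCore p (X ⧸ C),
      f = (QuotientGroup.mk' (Cfsg.pCore p (X ⧸ C))).comp (QuotientGroup.mk' C) := ⟨_, rfl⟩
  have hfs : Function.Surjective f := by
    rw [hf]
    exact (QuotientGroup.mk'_surjective _).comp (QuotientGroup.mk'_surjective _)
  haveI : (K.map f).Normal := hK.map f hfs
  have hfin : f a ∈ Cfsg.pCore p ((X ⧸ C) ⧸ Cfsg.pCore p (X ⧸ C)) := by
    apply mem_pCore_of_cent (K := K.map f)
    · intro z
      obtain ⟨y, rfl⟩ := hfs z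
      obtain ⟨j, hj⟩ := hj y
      exact ⟨j, by rw [← map_pow]; exact ⟨_, hj, rfl⟩⟩
    · obtain ⟨i, hi⟩ := hap
      exact ⟨i, by rw [← map_pow, hi, map_one]⟩
    · rw [mem_centralizer_iff]
      rintro _ ⟨k, hk, rfl⟩
      have h1 : a * k * a⁻¹ * k⁻¹ ∈ M := by rw [hM]; exact subset_normalClosure ⟨k, hk, rfl⟩
      have h2 : f (a * k * a⁻¹ * k⁻¹) = 1 := by
        rw [hf]
        exact (QuotientGroup.eq_one_iff _).2 (hMle ⟨_, h1, rfl⟩)
      simp only [map_mul, map_inv] at h2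
      rw [mul_inv_eq_one, mul_inv_eq_iff_eq_mul] at h2
      exact h2.symm
  rw [H1.pCore_quotient_eq_bot, mem_bot, hf] at hfin
  exact (QuotientGroup.eq_one_iff _).1 hfin

theorem nps_of_inC {Y : Type*} [Group Y] [Finite Y] (hp : p ≠ 2) (h : InC p Y) : Cfsg.IsNormalizerPStable p Y := by
  intro P hP g hg hq
  have hX : InC p (normalizer (P : Set Y)) := h.of_injective _ (normalizer (P : Set Y)).subtype_injective
  haveI : (P.subgroupOf (normalizer (P : Set Y))).Normal := inferInstance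
  refine stab_main hX hp (P := P.subgroupOf (normalizer (P : Set Y)))
    (hP.comap_of_injective _ (normalizer (P : Set Y)).subtype_injective) _ ?_ ?_
  · ext x
    rw [mem_subgroupOf, mem_centralizer_iff, mem_centralizer_iff]
    constructor
    · intro h1 y hy
      exact Subtype.ext (h1 y hy)
    · intro h1 y hy
      exact congrArg Subtype.val (h1 ⟨y, le_normalizer hy⟩ hy)
  · apply Subgroup.map_injective (normalizer (P : Set Y)).subtype_injective
    rw [Subgroup.map_commutator, Subgroup.map_commutator, MonoidHom.map_zpowers, subgroupOf_map_subtype,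
      inf_eq_left.2 le_normalizer, Subgroup.map_bot]
    exact hq

theorem inC_of_coatom {Y : Type*} [Group Y] [Finite Y] {T : Subgroup Y} (hT : IsSylIn p T ⊤) (hTc : IsCoatom T)
    (hN : Cfsg.HasNormalPComplement p (Y ⧸ Cfsg.pCore p Y)) : InC p Y := by
  obtain ⟨N, hNn, hNp, k, hk⟩ := H2.hasNormalPComplement_iff.1 hN
  have hNc : (Nat.card N).Coprime p := ((Nat.Prime.coprime_iff_not_dvd (Fact.out : p.Prime)).2 hNp).symm
  haveI hQn : (Cfsg.pCore p Y).Normal := H1.pCore_normal p Y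
  have hQp : IsPGroup p (Cfsg.pCore p Y) := H1.pCore_isPGroup p Y
  have hQT : Cfsg.pCore p Y ≤ T := by
    obtain ⟨S, rfl⟩ := hT.eq_sylow
    exact H1.pCore_le_sylow S
  obtain ⟨f, hf⟩ : ∃ f : Y →* Y ⧸ Cfsg.pCore p Y, f = QuotientGroup.mk' (Cfsg.pCore p Y) := ⟨_, rfl⟩
  have hfs : Function.Surjective f := by rw [hf]; exact QuotientGroup.mk'_surjective _
  have hker : f.ker = Cfsg.pCore p Y := by rw [hf]; exact QuotientGroup.ker_mk' _
  have hmem : ∀ x, f x = 1 ↔ x ∈ Cfsg.pCore p Y := fun x => by rw [← MonoidHom.mem_ker, hker]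
  have hcomapT : (T.map f).comap f = T := by
    rw [Subgroup.comap_map_eq, hker]; exact sup_eq_left.2 hQT
  have hTb : IsPGroup p (T.map f) := hT.pgroup.map _
  have hTbc : IsCoatom (T.map f) := by
    refine ⟨?_, ?_⟩
    · intro h
      apply hTc.1
      rw [← hcomapT, h, Subgroup.comap_top]
    · intro M hM
      have h1 : T < M.comap f := by
        rw [← hcomapT]
        exact (Subgroup.comap_lt_comap_of_surjective hfs).2 hM
      have h2 := hTc.2 _ h1
      rw [← Subgroup.map_comap_eq_self_of_surjective hfs M, h2]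
      exact Subgroup.map_top_of_surjective _ hfs
  have hNb : N ≠ ⊥ := by
    intro h
    apply hTbc.1
    rw [h, Subgroup.index_bot] at hk
    have h1 : IsPGroup p (⊤ : Subgroup (Y ⧸ Cfsg.pCore p Y)) :=
      (IsPGroup.iff_card.2 ⟨k, hk⟩ : IsPGroup p (Y ⧸ Cfsg.pCore p Y)).of_equiv Subgroup.topEquiv.symm
    have h2 : IsSylIn p (T.map f) ⊤ := by rw [hf]; exact isSylIn_map_mk hT
    exact (h2.eq_of_le le_top le_rfl h1).symm
  obtain ⟨hA, hB, hC⟩ := coatom_facts hNc hTb hTbc hNb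
  refine ⟨Cfsg.pCore p Y, N.comap f, hQn, hNn.comap f, ?_, hQp, ?_, ⟨Nat.card N, hNc, ?_⟩, ?_⟩
  · intro x hx
    change f x ∈ N
    rw [(hmem x).2 hx]; exact one_mem N
  · rw [commutator_le]
    intro a ha b hb
    rw [← hmem, ← mem_bot, ← hB, map_commutatorElement]
    exact commutator_mem_commutator ha hb
  · intro a ha
    rw [← hmem, map_pow]
    exact congrArg Subtype.val (pow_card_eq_one' (x := (⟨f a, ha⟩ : N)))
  · intro y
    refine ⟨k, ?_⟩
    change f (y ^ p ^ k) ∈ N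
    rw [map_pow, ← hk]
    exact Subgroup.pow_index_mem N _

end Cfsg.Agent.H14
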