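import Cfsg.Agent.H21.OT15e
import Cfsg.Agent.H2.WType

set_option autoImplicit false
set_option linter.unusedVariables false

/-! Bender-Glauberman, Theorem II, in the language of `sigmaA`, `sigmaA0`. -/

namespace Cfsg.Agent.H14.TT

open Subgroup Cfsg
open Cfsg.Agent.L (cj nz SylIn)
open Cfsg.Agent.H14 (IsPiSub)
open Cfsg.Agent.OOT
open Cfsg.Agent.H21

universe u
variable {G : Type u} [Group G] [Finite G] (hG : IsMinSimpleOddOrder G)
include hG

section Dec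
variable {M K U : Subgroup G} (hM : IsCoatom M) (h : IsSigmaDecomposition M K U)
include hM h

omit [Finite G] hG in
theorem sigmaA_sub_A0_aux {x : G} (hx : x ∈ sigmaHat M) : x ∈ M := hx.1

/-- with `K = 1`, `M = U M_σ` -/
theorem dec_top (hK : K = ⊥) : U ⊔ sigmaCore M = M := by
  apply le_antisymm (sup_le (dec_U_le h) (ms_le M))
  intro m hm
  obtain ⟨u, hu, s, hs, rfl⟩ := h.compl.2.2.2 m hm
  rw [hK, bot_sup_eq] at hs
  exact mul_mem (mem_sup_left hu) (mem_sup_right hs)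

/-- conjugate elements of `A(M) \ M_σ` -/
theorem conjA {a g : G} (ha : a ∈ sigmaA M U) (ha' : a ∉ sigmaCore M)
    (hb : g * a * g⁻¹ ∈ sigmaA M U) (hb' : g * a * g⁻¹ ∉ sigmaCore M) : g ∈ M := by
  obtain ⟨b, hb1, c, hc, e, hcb, h1, h2, hb1', hbM, hu⟩ := sigmaA_elt hG hM h ha ha'
  obtain ⟨b', hb2, c', hc', e', hcb', h1', h2', hb1'', hbM', hu'⟩ := sigmaA_elt hG hM h hb hb'
  have h3 : b' = g * b * g⁻¹ := by
    have e3 : (g * c * g⁻¹) * (g * b * g⁻¹) = c' * b' := by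
      rw [← e', e]; group
    refine (piPart_unique e3 ?_ hcb' (piElt_conj.2 h1) (piElt_conj.2 h2) h1' h2').2.symm
    calc (g * c * g⁻¹) * (g * b * g⁻¹) = g * (c * b) * g⁻¹ := by group
      _ = g * (b * c) * g⁻¹ := by rw [hcb]
      _ = _ := by group
  rw [h3] at hu'
  exact uniqIn_cent_conj hG hM hu hu'

/-- conjugate elements of `A₀(M) \ A(M)` -/
theorem conjA0 {a g : G} (ha : a ∈ sigmaA0 M K \ sigmaA M U)
    (hb : g * a * g⁻¹ ∈ sigmaA0 M K \ sigmaA M U) : g ∈ M := by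
  by_cases hK : K = ⊥
  · exfalso
    exact ha.2 ⟨ha.1.1, by rw [dec_top hG hM h hK]; exact ha.1.1.1⟩
  have hPM := dec_PM hM h hK
  rw [← A0_diff hG hM h hK] at ha hb
  obtain ⟨m, hm, z, hz, rfl⟩ := ha
  obtain ⟨m', hm', z', hz', e⟩ := hb
  have h1 : (m'⁻¹ * g * m) * z * (m'⁻¹ * g * m)⁻¹ = z' := by
    calc (m'⁻¹ * g * m) * z * (m'⁻¹ * g * m)⁻¹ = m'⁻¹ * (g * (m * z * m⁻¹) * g⁻¹) * m' := by group
      _ = m'⁻¹ * (m' * z' * m'⁻¹) * m' := by rw [e]
      _ = z' := by group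
  have h2 : m'⁻¹ * g * m ∈ Zof M K := hPM.Zhat_conj hG hz (by rw [h1]; exact hz'.1)
  have h3 := hPM.Z_le h2
  have : g = m' * (m'⁻¹ * g * m) * m⁻¹ := by group
  rw [this]
  exact M.mul_mem (M.mul_mem hm' h3) (M.inv_mem hm)

omit h in
/-- two elements of `M_σ` conjugate in `G` are conjugate in `M` -/
theorem fus_ms {x g : G} (hx : x ∈ sigmaCore M) (hx1 : x ≠ 1) (hg : g * x * g⁻¹ ∈ M) :
    ∃ m ∈ M, m * x * m⁻¹ = g * x * g⁻¹ := by
  have h1 : x ∈ cj g⁻¹ M := by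
    rw [L.mem_cj, inv_inv]; exact hg
  obtain ⟨c, hc, e⟩ := conj_trans hG hM hx hx1 h1
  have h2 := cj_cancel hG hM e
  rw [inv_inv] at h2
  refine ⟨g * c, h2, ?_⟩
  have h3 : c * x = x * c := mem_cent_singleton.1 hc
  calc g * c * x * (g * c)⁻¹ = g * (c * x) * c⁻¹ * g⁻¹ := by group
    _ = g * (x * c) * c⁻¹ * g⁻¹ := by rw [h3]
    _ = _ := by group

omit h in
theorem ms_conj_back {x g : G} (hx : x ∈ M) (hgM : g * x * g⁻¹ ∈ sigmaCore M) :
    x ∈ sigmaCore M := by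
  apply mem_ms hG hM hx
  have := ms_pi hG hM hgM
  rwa [piElt_conj] at this

/-- conjugacy and membership in `U M_σ` -/
theorem UMs_conj {x g : G} (hx : x ∈ U ⊔ sigmaCore M) (hg : g * x * g⁻¹ ∈ M) :
    g * x * g⁻¹ ∈ U ⊔ sigmaCore M := by
  apply piElt_mem_normal_hall (dec_UMs_hall hG hM h) (dec_UMs_nz hG hM h) hg
  rw [piElt_conj]
  exact piElt_of_mem (dec_UMs_hall hG hM h).2.1 hx

theorem A_or_A0 {X : Set G} (hX : X = sigmaA M U ∨ X = sigmaA0 M K) {x : G} (hx : x ∈ X) :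
    x ∈ sigmaA M U ∨ x ∈ sigmaA0 M K \ sigmaA M U := by
  rcases hX with rfl | rfl
  · exact Or.inl hx
  · by_cases h' : x ∈ sigmaA M U
    · exact Or.inl h'
    · exact Or.inr ⟨hx, h'⟩

theorem hat_of_X {X : Set G} (hX : X = sigmaA M U ∨ X = sigmaA0 M K) {x : G} (hx : x ∈ X) :
    x ∈ sigmaHat M := by
  rcases hX with rfl | rfl
  · exact hx.1
  · exact hx.1

/-- elements of `X \ M_σ` conjugate in `G` are conjugate only by elements of `M` -/
theorem conj_out {X : Set G} (hX : X = sigmaA M U ∨ X = sigmaA0 M K) {x g : G} (hx : x ∈ X)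
    (hxs : x ∉ sigmaCore M) (hg : g * x * g⁻¹ ∈ X) : g ∈ M := by
  have hxM := (hat_of_X hG hM h hX hx).1
  have hgM := (hat_of_X hG hM h hX hg).1
  have hgs : g * x * g⁻¹ ∉ sigmaCore M := fun h' => hxs (ms_conj_back hG hM hxM h')
  rcases A_or_A0 hG hM h hX hx with h1 | h1
  · rcases A_or_A0 hG hM h hX hg with h2 | h2
    · exact conjA hG hM h h1 hxs h2 hgs
    · exact absurd ⟨h2.1.1, UMs_conj hG hM h h1.2 hgM⟩ h2.2
  · rcases A_or_A0 hG hM h hX hg with h2 | h2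
    · refine absurd ⟨h1.1.1, ?_⟩ h1.2
      have e : x = g⁻¹ * (g * x * g⁻¹) * g⁻¹⁻¹ := by group
      have h3 : g⁻¹ * (g * x * g⁻¹) * g⁻¹⁻¹ ∈ M := by rw [← e]; exact hxM
      have := UMs_conj hG hM h h2.2 h3
      rwa [← e] at this
    · exact conjA0 hG hM h h1 h2

/-- Theorem II (a) -/
theorem fusion {X : Set G} (hX : X = sigmaA M U ∨ X = sigmaA0 M K) {x g : G} (hx : x ∈ X)
    (hg : g * x * g⁻¹ ∈ X) : ∃ m ∈ M, m * x * m⁻¹ = g * x * g⁻¹ := by
  by_cases hxs : x ∈ sigmaCore M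
  · by_cases hx1 : x = 1
    · exact ⟨1, M.one_mem, by rw [hx1]; simp⟩
    · exact fus_ms hG hM hxs hx1 (hat_of_X hG hM h hX hg).1
  · exact ⟨g, conj_out hG hM h hX hx hxs hg, rfl⟩

/-- Theorem II (b), first half -/
theorem D_sub {X : Set G} (hX : X = sigmaA M U ∨ X = sigmaA0 M K) {x : G} (hx : x ∈ X)
    (hc : ¬ centralizer ({x} : Set G) ≤ M) : x ∈ sigmaCore M := by
  by_contra hxs
  apply hc
  intro c hcx
  have h3 : c * x * c⁻¹ = x := by
    rw [mem_cent_singleton.1 hcx]; group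
  exact conj_out hG hM h hX hx hxs (by rw [h3]; exact hx)

end Dec

/-- the elements of `M̂_σ` when `κ(M) = τ₂(M) = ∅` -/
theorem hat_mem_ms {M : Subgroup G} (hM : IsCoatom M) (hκ : kappa M = ∅)
    (hτ : tau2 M = ∅) {y : G} (hy : y ∈ sigmaHat M) : y ∈ sigmaCore M := by
  obtain ⟨hyM, w, hw, hw1, hyw⟩ := hy
  obtain ⟨c, hc, b, hb, e, hcb, h1, h2⟩ := exists_piPart (sigma M) y
  have hle : zpowers y ≤ M := by rwa [zpowers_le]
  by_cases hb1 : b = 1
  · rw [hb1, mul_one] at e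
    exact mem_ms hG hM hyM (by rw [e]; exact h1)
  · exfalso
    have hob : orderOf b ≠ 1 := fun h => hb1 (orderOf_eq_one_iff.1 h)
    obtain ⟨p, hp, hpd⟩ := Nat.exists_prime_and_dvd hob
    obtain ⟨z, hz, hzp⟩ := exists_prime_power_elt (x := b) hp hpd
    have hzM : z ∈ M := hle ((zpowers_le.2 hb) hz)
    have := kappa_or_tau2 hG hM hzM hp hzp (h2 p hp hpd) hw hw1
      (commute_of_mem_zpowers hz (commute_of_mem_zpowers hb hyw))
    rw [hκ, hτ] at this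
    simpa using this

/-- Theorem II (d): coprimeness -/
theorem coprime_L {M L : Subgroup G} (hM : IsCoatom M) {x : G} (hx : x ∈ sigmaCore M)
    (hx1 : x ≠ 1) (hS : Sup M x L) {y : G} (hy : y ∈ sigmaHat M) (hy1 : y ≠ 1) :
    (Nat.card (sigmaCore L)).Coprime (Nat.card ↥(M ⊓ centralizer ({y} : Set G))) := by
  apply Nat.Coprime.symm
  apply Nat.Coprime.symm
  rw [Nat.coprime_iff_gcd_eq_one]
  by_contra hne
  obtain ⟨q, hq, hd⟩ := Nat.exists_prime_and_dvd hne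
  have hd1 := hd.trans (Nat.gcd_dvd_left _ _)
  have hd2 := hd.trans (Nat.gcd_dvd_right _ _)
  have hqL : q ∈ sigma L := (ms_hall hG hS.coatom).2.1 q hq hd1
  have hqM : q ∣ Nat.card M := hd2.trans (card_dvd_of_le inf_le_left)
  have hκ := row1436_kappa hG hM hx hx1 hS hqL hqM
  have hτ := row1436_tau2 hG hM hx hx1 hS hqL hqM
  have hys := hat_mem_ms hG hM hκ hτ hy
  have hqs : q ∉ sigma M := fun h' => sigma_not_of_not_conj hG hM hS.coatom hS.not_conj h' hqL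
  haveI : Fact q.Prime := ⟨hq⟩
  obtain ⟨z, hz⟩ := exists_prime_orderOf_dvd_card' q hd2
  have hzp : orderOf (z : G) = q := by rw [Subgroup.orderOf_coe]; exact hz
  have := kappa_or_tau2 hG hM (z.2.1) hq hzp hqs hys hy1 (mem_cent_singleton.1 z.2.2)
  rw [hκ, hτ] at this
  simpa using this

section Dec
variable {M K U : Subgroup G} (hM : IsCoatom M) (h : IsSigmaDecomposition M K U)
include hM h

/-- Theorem II for the sets `sigmaA`, `sigmaA0`, without the Frobenius part. -/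
theorem thmII {X : Set G} (hX : X = sigmaA M U \ {1} ∨ X = sigmaA0 M K \ {1}) :
    (∀ x ∈ X, ∀ g : G, g * x * g⁻¹ ∈ X → ∃ m ∈ M, m * x * m⁻¹ = g * x * g⁻¹) ∧
      (∀ x ∈ X, ¬ centralizer ({x} : Set G) ≤ M → x ∈ (sigmaCore M : Set G) \ {1} ∧
        ∃! L : Subgroup G, IsCoatom L ∧ centralizer ({x} : Set G) ≤ L) ∧
      ∀ x ∈ X, ¬ centralizer ({x} : Set G) ≤ M → ∀ L : Subgroup G, IsCoatom L →
        centralizer ({x} : Set G) ≤ L →
        Sup M x L ∧ fittingHallOf L = sigmaCore L ∧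
        IsComplIn (fittingHallOf L) (M ⊓ L) L ∧
        centralizer ({x} : Set G) ≤
          normalizer ((fittingHallOf L ⊓ centralizer ({x} : Set G) : Subgroup G) : Set G) ∧
        IsComplIn (fittingHallOf L ⊓ centralizer ({x} : Set G)) (M ⊓ centralizer ({x} : Set G))
          (centralizer ({x} : Set G)) ∧
        (∀ y ∈ X, (Nat.card (fittingHallOf L)).Coprime
          (Nat.card ↥(M ⊓ centralizer ({y} : Set G)))) ∧
        ∀ K' U' : Subgroup G, IsSigmaDecomposition L K' U' →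
          U' ≠ ⊥ ∧ x ∈ sigmaA L U' ∧ x ∉ sigmaCore L := by
  obtain ⟨Y, hY, hXY⟩ : ∃ Y : Set G, (Y = sigmaA M U ∨ Y = sigmaA0 M K) ∧ X = Y \ {1} := by
    rcases hX with h' | h'
    · exact ⟨_, Or.inl rfl, h'⟩
    · exact ⟨_, Or.inr rfl, h'⟩
  subst hXY
  have key : ∀ x ∈ Y \ {1}, ¬ centralizer ({x} : Set G) ≤ M → x ∈ sigmaCore M ∧ x ≠ 1 ∧
      ∃ N : Subgroup G, Sup M x N := by
    rintro x ⟨hx, hx1⟩ hc
    have hxs := D_sub hG hM h hY hx hc
    exact ⟨hxs, hx1, thm_14_4 hG hM hxs hx1 hc⟩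
  refine ⟨fun x hx g hg => fusion hG hM h hY hx.1 hg.1, ?_, ?_⟩
  · intro x hx hc
    obtain ⟨hxs, hx1, N, hN⟩ := key x hx hc
    exact ⟨⟨hxs, hx1⟩, N, ⟨hN.coatom, hN.uniq.1⟩, fun L hL => hN.uniq.2 L hL.1 hL.2⟩
  · intro x hx hc L hL hxL
    obtain ⟨hxs, hx1, N, hN⟩ := key x hx hc
    obtain rfl : L = N := hN.uniq.2 L hL hxL
    have hF : fittingHallOf L = sigmaCore L := fhOf_eq_ms hG hL hN.nil
    refine ⟨hN, hF, ?_, ?_, ?_, ?_, ?_⟩
    · rw [hF]; exact complIn_symm hN.compl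
    · rw [hF]; exact cent_nz hG hxL
    · rw [hF]; exact complIn_symm (cent_compl hG hM hxs hx1 hN)
    · intro y hy
      rw [hF]
      exact coprime_L hG hM hxs hx1 hN (hat_of_X hG hM h hY hy.1) hy.2
    · intro K' U' hd
      obtain ⟨N', ⟨hN'1, hN'2⟩, h3, -, -, -, -, h4⟩ := row1375 hG hM hxs hx1 hc
      obtain rfl : L = N' := h3 L hL hxL
      exact h4 K' U' hd

end Dec

end Cfsg.Agent.H14.TT
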